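import Mathlib
import Cfsg.Agent.SuzSection97.Eval
import Cfsg.Agent.Leech.Monster.Conjugate
import Cfsg.Agent.Leech.Classes

set_option autoImplicit false

/-! An element of order 7 of the lattice group, an involution inverting it given as a conjugate of
a sign change, and an element squaring it. -/

namespace CfsgLib.MonsterSeven49

open Cfsg CfsgLib.Leech
open CfsgLib.SuzSection (freeze gather xiList xiList_ok axisList axisList_ok freeze_injective pt_roundtrip idx_roundtrip gather_ok)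

/-- The atoms. -/
inductive Atom
  | x
  | mo (k : Fin 12)

/-- Permutation tables, inverse tables and sign masks. -/
def monoData : Array (Array ℕ × Array ℕ × ℕ) :=
  #[(#[19, 4, 21, 14, 18, 8, 1, 16, 6, 22, 5, 3, 12, 13, 20, 0, 11, 7, 10, 9, 17, 15, 2, 23], #[15, 6, 22, 11, 1, 10, 8, 17, 5, 19, 18, 16, 12, 13, 3, 21, 7, 20, 4, 0, 14, 2, 9, 23], 0),
    (#[15, 6, 22, 11, 1, 10, 8, 17, 5, 19, 18, 16, 12, 13, 3, 21, 7, 20, 4, 0, 14, 2, 9, 23], #[19, 4, 21, 14, 18, 8, 1, 16, 6, 22, 5, 3, 12, 13, 20, 0, 11, 7, 10, 9, 17, 15, 2, 23], 0),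
    (#[0, 1, 2, 3, 4, 5, 6, 7, 8, 9, 10, 11, 12, 13, 14, 15, 16, 17, 18, 19, 20, 21, 22, 23], #[0, 1, 2, 3, 4, 5, 6, 7, 8, 9, 10, 11, 12, 13, 14, 15, 16, 17, 18, 19, 20, 21, 22, 23], 4429500),
    (#[0, 1, 19, 3, 18, 4, 8, 14, 10, 2, 6, 16, 12, 13, 20, 21, 17, 11, 5, 9, 7, 22, 15, 23], #[0, 1, 9, 3, 5, 18, 10, 20, 6, 19, 8, 17, 12, 13, 7, 22, 11, 16, 4, 2, 14, 15, 21, 23], 0),
    (#[6, 4, 23, 18, 16, 3, 12, 8, 22, 11, 0, 20, 19, 21, 15, 10, 17, 1, 9, 13, 5, 7, 14, 2], #[10, 17, 23, 5, 1, 20, 0, 21, 7, 18, 15, 9, 6, 19, 22, 14, 4, 16, 3, 12, 11, 13, 8, 2], 9804902),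
    (#[8, 12, 3, 23, 17, 1, 22, 7, 20, 6, 0, 18, 19, 10, 16, 11, 13, 14, 2, 21, 15, 5, 9, 4], #[10, 5, 18, 2, 23, 21, 9, 7, 0, 22, 13, 15, 1, 16, 17, 20, 14, 4, 11, 12, 8, 19, 6, 3], 10503678),
    (#[20, 7, 9, 5, 3, 18, 1, 16, 10, 17, 22, 19, 6, 12, 13, 2, 4, 0, 21, 8, 11, 14, 23, 15], #[17, 6, 15, 4, 16, 3, 12, 1, 19, 2, 8, 20, 13, 14, 21, 23, 7, 9, 5, 11, 0, 18, 10, 22], 10324771),
    (#[4, 10, 0, 21, 13, 18, 7, 3, 19, 8, 11, 6, 22, 5, 23, 16, 20, 14, 15, 2, 9, 12, 17, 1], #[2, 23, 19, 7, 0, 13, 11, 6, 9, 20, 1, 10, 21, 4, 17, 18, 15, 22, 5, 8, 16, 3, 12, 14], 0),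
    (#[2, 23, 19, 7, 0, 13, 11, 6, 9, 20, 1, 10, 21, 4, 17, 18, 15, 22, 5, 8, 16, 3, 12, 14], #[4, 10, 0, 21, 13, 18, 7, 3, 19, 8, 11, 6, 22, 5, 23, 16, 20, 14, 15, 2, 9, 12, 17, 1], 0),
    (#[17, 6, 15, 4, 16, 3, 12, 1, 19, 2, 8, 20, 13, 14, 21, 23, 7, 9, 5, 11, 0, 18, 10, 22], #[20, 7, 9, 5, 3, 18, 1, 16, 10, 17, 22, 19, 6, 12, 13, 2, 4, 0, 21, 8, 11, 14, 23, 15], 14289133),
    (#[10, 5, 18, 2, 23, 21, 9, 7, 0, 22, 13, 15, 1, 16, 17, 20, 14, 4, 11, 12, 8, 19, 6, 3], #[8, 12, 3, 23, 17, 1, 22, 7, 20, 6, 0, 18, 19, 10, 16, 11, 13, 14, 2, 21, 15, 5, 9, 4], 11412141),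
    (#[10, 17, 23, 5, 1, 20, 0, 21, 7, 18, 15, 9, 6, 19, 22, 14, 4, 16, 3, 12, 11, 13, 8, 2], #[6, 4, 23, 18, 16, 3, 12, 8, 22, 11, 0, 20, 19, 21, 15, 10, 17, 1, 9, 13, 5, 7, 14, 2], 9620061)]

/-- The word of the conjugating element. -/
def baseW : List Atom := [.mo 4, .x, .mo 5, .x, .mo 6, .x, .mo 7]

/-- Its inverse. -/
def baseWInv : List Atom := [.mo 8, .x, .mo 9, .x, .mo 10, .x, .mo 11]

/-- The table of an atom. -/
def fwd (k : Fin 12) : Array ℕ := (monoData.getD k (#[], #[], 0)).1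

/-- The inverse table of an atom. -/
def bwd (k : Fin 12) : Array ℕ := (monoData.getD k (#[], #[], 0)).2.1

/-- The mask of an atom. -/
def maskOf (k : Fin 12) : ℕ := (monoData.getD k (#[], #[], 0)).2.2

/-- A mask as a binary word. -/
def maskWord (m : ℕ) : GolayPt → ZMod 2 := fun p => if m.testBit (ptIdx p) then 1 else 0

theorem tables_ok : ∀ k, (∀ p, tableFun (bwd k) (tableFun (fwd k) p) = p) ∧
    (∀ p, tableFun (fwd k) (tableFun (bwd k) p) = p) ∧
    (∀ n : Fin 24, (bwd k).toList.getD n 0 < 24 ∧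
      idxPt ((bwd k).toList.getD n 0) = tableFun (bwd k) (idxPt n)) := by
  decide +kernel

theorem code_ok : ∀ k, ∀ t s : ZMod 23,
    (∑ p, qrTab s p * qrTab t (tableFun (bwd k) p)) = (0 : ZMod 2) ∧
      (∑ p, qrTab t (tableFun (bwd k) p)) = (0 : ZMod 2) := by
  decide +kernel

theorem mask_ok : ∀ k, (∀ t : ZMod 23, (∑ p, qrTab t p * maskWord (maskOf k) p) = (0 : ZMod 2)) ∧
    (∑ p, maskWord (maskOf k) p) = (0 : ZMod 2) := by
  decide +kernel

/-- The permutation of an atom. -/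
def monoPerm (k : Fin 12) : M24 :=
  ⟨⟨tableFun (fwd k), tableFun (bwd k), (tables_ok k).1, (tables_ok k).2.1⟩, by
    refine perm_mem_M24 _ fun t => (mem_code_iff _).2 ⟨fun s => ?_, ?_⟩
    · have := (code_ok k t s).1
      simp only [qrTab_eq] at this
      rw [dot₂_apply]; exact this
    · have := (code_ok k t 0).2
      simp only [qrTab_eq] at this
      rw [dot₂_apply]; simp only [Pi.one_apply, one_mul]; exact this⟩

/-- The word of an atom. -/
def monoWord (k : Fin 12) : golayCode :=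
  ⟨maskWord (maskOf k), (mem_code_iff _).2 ⟨fun t => by
      have := (mask_ok k).1 t
      simp only [qrTab_eq] at this
      rw [dot₂_apply]; exact this, by
      rw [dot₂_apply]; simp only [Pi.one_apply, one_mul]; exact (mask_ok k).2⟩⟩

/-- The isometry of an atom. -/
noncomputable def Atom.val : Atom → Co0
  | .x => xi
  | .mo k => monomial (monoWord k, monoPerm k)

/-- The product of a word. -/
noncomputable def wordVal (w : List Atom) : Co0 := (w.map Atom.val).prod

theorem wordVal_append (v w : List Atom) : wordVal (v ++ w) = wordVal v * wordVal w := by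
  simp [wordVal]

/-- An atom on lists. -/
def step : Atom → List ℤ → List ℤ
  | .x => xiList
  | .mo k => gather (bwd k).toList (maskOf k)

theorem maskWord_ok (m : ℕ) (n : Fin 24) : m.testBit n = true ↔ maskWord m (idxPt n) ≠ 0 := by
  rw [maskWord, idx_roundtrip n]
  cases m.testBit n <;> simp

theorem step_ok (x : Atom) (v : leechLattice) :
    step x (freeze (v : GolayPt → ℤ)) = freeze ((x.val • v : leechLattice) : GolayPt → ℤ) := by
  cases x with
  | x => exact xiList_ok _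
  | mo k =>
    refine (gather_ok _ _ _ _ _ (tables_ok k).2.2 (maskWord_ok _)).trans
      (congrArg freeze (funext fun i => ?_))
    show _ = ((monomial (monoWord k, monoPerm k) • v : leechLattice) : GolayPt → ℤ) i
    rw [monomial_apply]
    rfl

/-- The image of a list under a word. -/
def evalW : List Atom → List ℤ → List ℤ
  | [], l => l
  | x :: w, l => step x (evalW w l)

theorem evalW_ok (w : List Atom) (v : leechLattice) :
    evalW w (freeze (v : GolayPt → ℤ)) = freeze ((wordVal w • v : leechLattice) : GolayPt → ℤ) := by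
  induction w with
  | nil => simp [evalW, wordVal]
  | cons x w ih => rw [evalW, ih, step_ok, ← mul_smul]; simp [wordVal]

/-- Comparison of two words. -/
def sameWord (v w : List Atom) : Bool :=
  (List.range 24).all fun j => evalW v (axisList j) == evalW w (axisList j)

theorem sameWord_iff (v w : List Atom) : sameWord v w = true ↔ wordVal v = wordVal w := by
  simp only [sameWord, List.all_eq_true, List.mem_range, beq_iff_eq]
  constructor
  · intro h
    refine co0_ext fun p => Subtype.ext (freeze_injective ?_)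
    rw [← evalW_ok, ← evalW_ok, axisList_ok]
    exact h _ (pt_roundtrip p).1
  · intro e j hj
    have h := axisList_ok (idxPt j)
    rw [idx_roundtrip ⟨j, hj⟩] at h
    rw [← h, evalW_ok, evalW_ok, e]

theorem gamma_checks : sameWord (List.replicate 7 (.mo 0)) [] = true ∧
    sameWord [.mo 0] [] = false ∧ sameWord [.mo 0, .mo 1] [] = true ∧
    sameWord [.mo 3, .mo 0] [.mo 0, .mo 0, .mo 3] = true := by
  decide +kernel

theorem base_check : sameWord (baseW ++ baseWInv) [] = true := by decide +kernel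

theorem tau_check : sameWord (baseW ++ [.mo 2] ++ baseWInv ++ [.mo 0])
    ([.mo 1] ++ baseW ++ [.mo 2] ++ baseWInv) = true := by decide +kernel

/-- The element of order 7. -/
noncomputable def γ₀ : Co0 := wordVal [.mo 0]

/-- The element conjugating a sign change to an inverting involution. -/
noncomputable def base₀ : Co0 := wordVal baseW

/-- The inverting involution. -/
noncomputable def τ₀ : Co0 := base₀ * signs (monoWord 2).1 (monoWord 2).2 * base₀⁻¹

/-- An element squaring `γ₀`. -/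
noncomputable def ρ₀ : Co0 := wordVal [.mo 3]

theorem gamma_pow : γ₀ ^ 7 = 1 := by
  have h := (sameWord_iff _ _).1 gamma_checks.1
  rw [wordVal, List.map_replicate, List.prod_replicate] at h
  simpa [wordVal, γ₀] using h

theorem gamma_ne_one : γ₀ ≠ 1 := fun h => by
  have h1 : sameWord [.mo 0] [] = true := (sameWord_iff _ _).2 (by rw [← γ₀, h]; rfl)
  rw [gamma_checks.2.1] at h1
  exact Bool.noConfusion h1

theorem rho_conj : ρ₀ * γ₀ * ρ₀⁻¹ = γ₀ ^ 2 := by
  have h := (sameWord_iff _ _).1 gamma_checks.2.2.2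
  rw [mul_inv_eq_iff_eq_mul]
  simpa [wordVal, γ₀, ρ₀, pow_two, mul_assoc] using h

theorem mo_two_val : wordVal [.mo 2] = signs (monoWord 2).1 (monoWord 2).2 := by
  have h : (monoPerm 2) = 1 := Subtype.ext (Equiv.ext fun p => by
    show tableFun (fwd 2) p = p
    revert p; decide +kernel)
  simp [wordVal, Atom.val, monomial, h]

theorem tau_conj : τ₀ * γ₀ * τ₀⁻¹ = γ₀⁻¹ := by
  have hi : γ₀⁻¹ = wordVal [.mo 1] := by
    have h := (sameWord_iff _ _).1 gamma_checks.2.2.1
    rw [show ([.mo 0, .mo 1] : List Atom) = [.mo 0] ++ [.mo 1] from rfl, wordVal_append] at h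
    exact inv_eq_of_mul_eq_one_right (h.trans rfl)
  have hb : base₀⁻¹ = wordVal baseWInv := by
    have h := (sameWord_iff _ _).1 base_check
    rw [wordVal_append] at h
    exact inv_eq_of_mul_eq_one_right (h.trans rfl)
  have h := (sameWord_iff _ _).1 tau_check
  simp only [wordVal_append] at h
  rw [mul_inv_eq_iff_eq_mul, hi, τ₀, hb, ← mo_two_val]
  simpa [base₀, γ₀, mul_assoc] using h

/-- A vector of squared length 64 fixed by `γ₀`. -/
def oddFrame : leechLattice :=
  ⟨fun p => if ptIdx p = 12 ∨ ptIdx p = 13 then 3 else if ptIdx p = 23 then -5 else -1,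
    mem_leech_of_check (by decide +kernel)⟩

theorem oddFrame_facts : sqNorm (oddFrame : GolayPt → ℤ) = 64 ∧
    dotPar (axisVec none) oddFrame = 1 ∧
    (∀ p, (oddFrame : GolayPt → ℤ) (tableFun (bwd 0) p) = (oddFrame : GolayPt → ℤ) p) ∧
    tableFun (bwd 0) none = none ∧ maskWord (maskOf 0) = 0 := by
  decide +kernel

theorem gamma_smul_apply (v : leechLattice) (i : GolayPt) :
    ((γ₀ • v : leechLattice) : GolayPt → ℤ) i = (v : GolayPt → ℤ) (tableFun (bwd 0) i) := by
  have h : γ₀ = monomial (monoWord 0, monoPerm 0) := by simp [γ₀, wordVal, Atom.val]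
  rw [h, monomial_apply, if_pos]
  · rfl
  · exact congrFun oddFrame_facts.2.2.2.2 i

end CfsgLib.MonsterSeven49
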