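import Mathlib
import Cfsg.Agent.MonsterSeven49.Data

set_option autoImplicit false

/-! Finite facts on the cycles of `γ₀` and the candidate permutations. -/

namespace CfsgLib.MonsterSeven49

open Cfsg CfsgLib.Leech
open CfsgLib.SuzSection (idx_roundtrip pt_roundtrip)

/-- The cycles. -/
def cycTab : List (List ℕ) :=
  [[0, 19, 9, 22, 2, 21, 15], [1, 4, 18, 10, 5, 8, 6], [3, 14, 20, 17, 7, 16, 11]]

/-- A point of a cycle. -/
def cycPt (i : Fin 3) (k : Fin 7) : ℕ := (cycTab.getD i []).getD k 0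

/-- The fixed points. -/
def fixPt (i : Fin 3) : ℕ := [13, 12, 23].getD i 0

/-- The cycle and place of a point; `none` for fixed points. -/
def posOf (n : ℕ) : Option (Fin 3 × Fin 7) :=
  ((List.finRange 3).flatMap fun i => (List.finRange 7).map fun k => (i, k)).find? fun q =>
    cycPt q.1 q.2 == n

/-- The candidate permutations. -/
def candTab (e : ℕ) (j : Fin 3 → Fin 7) (n : ℕ) : ℕ :=
  match posOf n with
  | none => n
  | some (i, k) => cycPt i ⟨((j i : ℕ) + e * k) % 7, Nat.mod_lt _ (by norm_num)⟩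

/-- The candidate preserves the code. -/
def CandOK (e : ℕ) (j : Fin 3 → Fin 7) : Prop :=
  ∀ a b : Fin 12, (∑ p, basisWord a p * basisWord b (idxPt (candTab e j (ptIdx p)))) = (0 : ZMod 2)

instance (e : ℕ) (j : Fin 3 → Fin 7) : Decidable (CandOK e j) := by unfold CandOK; infer_instance

theorem cand_rigid_plus : ∀ a b c : Fin 7, CandOK 1 ![a, b, c] → b = a ∧ c = a := by
  decide +kernel

theorem cand_rigid_minus : ∀ a b c : Fin 7, ¬ CandOK 6 ![a, b, c] := by
  decide +kernel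

/-- A short fixed vector. -/
def octFun (i : Fin 3) : GolayPt → ℤ := fun p =>
  if ptIdx p = fixPt i ∨ ∃ k : Fin 7, ptIdx p = cycPt i k then 2 else 0

theorem pos_facts : (∀ n : Fin 24, (posOf n = none → ∃ i, (n : ℕ) = fixPt i) ∧
      ∀ i k, posOf n = some (i, k) → (n : ℕ) = cycPt i k) ∧
    (∀ (i : Fin 3) (k : Fin 7), cycPt i k < 24 ∧
      idxPt (cycPt i k) = (tableFun (fwd 0))^[(k : ℕ)] (idxPt (cycPt i 0))) ∧
    (∀ i, fixPt i < 24 ∧ ∀ k, fixPt i ≠ cycPt i k) ∧
    ∀ i, CheckLeech (octFun i) ∧ sqNorm (octFun i) = 32 ∧ sqNorm (oddVec (idxPt (fixPt i))) = 32 ∧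
      ∀ p, octFun i (tableFun (bwd 0) p) = octFun i p ∧
        oddVec (idxPt (fixPt i)) (tableFun (bwd 0) p) = oddVec (idxPt (fixPt i)) p ∧
        (octFun i p ≠ 0 → p = idxPt (fixPt i) ∨ ∃ k : Fin 7, p = idxPt (cycPt i k)) := by
  decide +kernel

theorem iterate_period : ∀ p : GolayPt, (tableFun (fwd 0))^[7] p = p := by decide +kernel

theorem axis_fixed : ∀ p, (axisVec none : GolayPt → ℤ) (tableFun (bwd 0) p) =
    (axisVec none : GolayPt → ℤ) p := by
  decide +kernel

theorem start_facts : ∀ i, octFun i (idxPt (cycPt i 0)) ≠ 0 ∧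
    idxPt (cycPt i 0) ≠ idxPt (fixPt i) := by
  decide +kernel

theorem fixed_points_iterate : ∀ (q : GolayPt), posOf (ptIdx q) = none → ∀ n : Fin 7,
    (tableFun (fwd 0))^[(n : ℕ)] q = q := by
  decide +kernel

end CfsgLib.MonsterSeven49
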