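import Mathlib
import Cfsg.Agent.MonsterSeven49.FaithData

set_option autoImplicit false

/-! An element fixing all classes fixed by `γ₀` and normalising it lies in `± ⟨γ₀⟩`. -/

namespace CfsgLib.MonsterSeven49

open Cfsg CfsgLib.Leech
open CfsgLib.SuzSection (idx_roundtrip pt_roundtrip)

theorem monoPerm_iterate (n : ℕ) (p : GolayPt) :
    ((monoPerm 0) ^ n).1 p = (tableFun (fwd 0))^[n] p := by
  induction n with
  | zero => rfl
  | succ n ih =>
    rw [pow_succ', Function.iterate_succ_apply', ← ih]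
    rfl

theorem monoPerm_symm (k : Fin 12) (p : GolayPt) :
    (monoPerm k).1.symm p = tableFun (bwd k) p := rfl

theorem iterate_seven (n : ℕ) (p : GolayPt) :
    (tableFun (fwd 0))^[n] p = (tableFun (fwd 0))^[n % 7] p := by
  conv_lhs => rw [← Nat.mod_add_div n 7, Function.iterate_add_apply, Function.iterate_mul]
  congr 1
  induction n / 7 with
  | zero => rfl
  | succ m ih => rw [Function.iterate_succ_apply, iterate_period, ih]

attribute [local irreducible] monoPerm

theorem gamma_eq_perm : γ₀ = permHom (monoPerm 0) := by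
  refine co0_ext fun i => Subtype.ext (funext fun k => ?_)
  rw [gamma_smul_apply, permHom_apply, monoPerm_symm]

theorem permHom_inj {a b : M24} (h : permHom a = permHom b) : a = b := by
  have e : monomial (0, a) = monomial (0, b) := by
    simp only [monomial, ZeroMemClass.coe_zero, signs_zero, one_mul, h]
  exact congrArg Prod.snd (monomial_injective e)

theorem cg_of_fixed {v : leechLattice}
    (h : ∀ p, (v : GolayPt → ℤ) (tableFun (bwd 0) p) = (v : GolayPt → ℤ) p) : Cg (γ₀ • v) v := by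
  rw [show γ₀ • v = v from Subtype.ext (funext fun i => (gamma_smul_apply v i).trans (h i))]
  exact Cg.refl v

/-- A monomial element fixing the class of a short vector moves it to itself up to sign. -/
theorem monomial_fix_short {x : golayCode × M24} {v : leechLattice}
    (hn : sqNorm (v : GolayPt → ℤ) = 32) (h : Cg (monomial x • v) v) :
    ∃ s : ℤ, (s = 1 ∨ s = -1) ∧ ∀ i, (if x.1.1 i = 0 then (v : GolayPt → ℤ) (x.2.1.symm i)
      else -(v : GolayPt → ℤ) (x.2.1.symm i)) = s * (v : GolayPt → ℤ) i := by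
  have hn' : sqNorm ((monomial x • v : leechLattice) : GolayPt → ℤ) = 32 := by rw [co0_sqNorm, hn]
  rcases cg_short h (by omega) (by omega) with e | e | e
  · exact ⟨1, Or.inl rfl, fun i => by rw [← monomial_apply, e, one_mul]⟩
  · exact ⟨-1, Or.inr rfl, fun i => by rw [← monomial_apply, e]; simp⟩
  · omega

theorem perm_value {π : M24} {e : ℕ} (hπσ : π * monoPerm 0 * π⁻¹ = monoPerm 0 ^ e)
    (hπfix : ∀ i, π.1 (idxPt (fixPt i)) = idxPt (fixPt i)) {j : Fin 3 → Fin 7}
    (hj : ∀ i, π.1 (idxPt (cycPt i 0)) = idxPt (cycPt i (j i))) :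
    ∀ p, π.1 p = idxPt (candTab e j (ptIdx p)) := by
  intro p
  have hpn := pt_roundtrip p
  unfold candTab
  cases hpos : posOf (ptIdx p) with
  | none =>
    obtain ⟨i, hi⟩ := (pos_facts.1 ⟨_, hpn.1⟩).1 hpos
    show π.1 p = idxPt (ptIdx p)
    rw [hpn.2, show p = idxPt (fixPt i) by rw [← hpn.2]; exact congrArg idxPt hi]
    exact hπfix i
  | some q =>
    obtain ⟨i, k⟩ := q
    have hi : ptIdx p = cycPt i k := (pos_facts.1 ⟨_, hpn.1⟩).2 i k hpos
    have hp : p = idxPt (cycPt i k) := by rw [← hi, hpn.2]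
    show _ = idxPt (cycPt i ⟨((j i : ℕ) + e * k) % 7, _⟩)
    rw [(pos_facts.2.1 i _).2, hp, (pos_facts.2.1 i k).2, ← monoPerm_iterate]
    have hh : π * monoPerm 0 ^ (k : ℕ) = monoPerm 0 ^ (e * k) * π := by
      rw [pow_mul, ← hπσ, conj_pow]; group
    have := congrArg (fun g : M24 => g.1 (idxPt (cycPt i 0))) hh
    simp only [Subgroup.coe_mul, Equiv.Perm.mul_apply] at this
    rw [this, hj, (pos_facts.2.1 i (j i)).2, monoPerm_iterate, ← Function.iterate_add_apply,
      iterate_seven, add_comm]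

theorem cand_diag {j : Fin 3 → Fin 7} (hj : ∀ i, j i = j 0) (p : GolayPt) :
    idxPt (candTab 1 j (ptIdx p)) = (tableFun (fwd 0))^[(j 0 : ℕ)] p := by
  have hpn := pt_roundtrip p
  unfold candTab
  cases hpos : posOf (ptIdx p) with
  | none =>
    show idxPt (ptIdx p) = _
    rw [hpn.2, fixed_points_iterate p hpos]
  | some q =>
    obtain ⟨i, k⟩ := q
    have hi : ptIdx p = cycPt i k := (pos_facts.1 ⟨_, hpn.1⟩).2 i k hpos
    have hp : p = idxPt (cycPt i k) := by rw [← hi, hpn.2]
    show idxPt (cycPt i ⟨((j i : ℕ) + 1 * k) % 7, _⟩) = _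
    rw [(pos_facts.2.1 i _).2, hp, (pos_facts.2.1 i k).2, ← Function.iterate_add_apply,
      ← iterate_seven, one_mul, hj i]

theorem faith₀ {g : Co0} (hg : g * γ₀ * g⁻¹ = γ₀ ∨ g * γ₀ * g⁻¹ = γ₀⁻¹)
    (hfix : ∀ v, Cg (γ₀ • v) v → Cg (g • v) v) :
    g ∈ Subgroup.center Co0 ⊔ Subgroup.zpowers γ₀ := by
  obtain ⟨⟨c, π⟩, rfl⟩ := frame_decomp (hfix _ (cg_of_fixed axis_fixed))
  have hodd : ∀ i, ∃ s : ℤ, (s = 1 ∨ s = -1) ∧ ∀ p, (if c.1 p = 0 then oddVec (idxPt (fixPt i)) (π.1.symm p)
      else -oddVec (idxPt (fixPt i)) (π.1.symm p)) = s * oddVec (idxPt (fixPt i)) p := fun i =>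
    monomial_fix_short (v := ⟨_, oddVec_mem _⟩) (pos_facts.2.2.2 i).2.2.1
      (hfix _ (cg_of_fixed fun p => ((pos_facts.2.2.2 i).2.2.2 p).2.1))
  have hπfix : ∀ i, π.1 (idxPt (fixPt i)) = idxPt (fixPt i) := by
    intro i
    obtain ⟨s, hs, h⟩ := hodd i
    set a := idxPt (fixPt i)
    have h1 := h a
    by_contra hne
    have : π.1.symm a ≠ a := fun e => hne (by nth_rewrite 1 [← e]; simp)
    simp only [oddVec, if_neg this, if_true] at h1
    rcases hs with rfl | rfl <;> split_ifs at h1 <;> norm_num at h1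
  have hconst : c.1 = 0 ∨ c.1 = 1 := by
    obtain ⟨s, hs, h⟩ := hodd 2
    have h01 : ∀ u : ZMod 2, u = 0 ∨ u = 1 := by decide
    have key : ∀ p, c.1 p = if s = 1 then 0 else 1 := by
      intro p
      have h1 := h p
      have hsym : oddVec (idxPt (fixPt 2)) (π.1.symm p) = oddVec (idxPt (fixPt 2)) p := by
        have : π.1.symm p = idxPt (fixPt 2) ↔ p = idxPt (fixPt 2) := by
          rw [Equiv.symm_apply_eq, hπfix]
        simp only [oddVec, this]
      rw [hsym] at h1
      have hne : oddVec (idxPt (fixPt 2)) p ≠ 0 := by simp only [oddVec]; split <;> norm_num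
      rcases h01 (c.1 p) with e | e <;> rcases hs with rfl | rfl <;> simp [e] at h1 ⊢ <;>
        exact absurd (by omega) hne
    rcases hs with rfl | rfl
    · exact Or.inl (funext fun p => by simpa using key p)
    · exact Or.inr (funext fun p => by simpa using key p)
  obtain ⟨w, hw, hsplit⟩ : ∃ w ∈ Subgroup.center Co0, monomial (c, π) = w * permHom π := by
    refine ⟨signs c.1 c.2, ?_, rfl⟩
    rcases hconst with e | e
    · have : signs c.1 c.2 = 1 := by
        simp only [e]
        exact signs_zero _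
      rw [this]; exact one_mem _
    · have : signs c.1 c.2 = negOne := by simp only [e]; rfl
      rw [this]; exact negOne_central
  have hconj : monomial (c, π) * γ₀ * (monomial (c, π))⁻¹ = permHom (π * monoPerm 0 * π⁻¹) := by
    rw [hsplit, map_mul, map_mul, map_inv, ← gamma_eq_perm]
    have hc := Subgroup.mem_center_iff.1 hw (permHom π * γ₀ * (permHom π)⁻¹)
    calc w * permHom π * γ₀ * (w * permHom π)⁻¹
        = w * (permHom π * γ₀ * (permHom π)⁻¹) * w⁻¹ := by group
      _ = _ := by rw [← hc]; group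
  obtain ⟨e, he, hπσ⟩ : ∃ e : ℕ, (e = 1 ∨ e = 6) ∧ π * monoPerm 0 * π⁻¹ = monoPerm 0 ^ e := by
    rcases hg with h | h <;> rw [hconj] at h
    · exact ⟨1, Or.inl rfl, permHom_inj (by rw [h, pow_one, gamma_eq_perm])⟩
    · refine ⟨6, Or.inr rfl, permHom_inj ?_⟩
      rw [h, map_pow, ← gamma_eq_perm]
      exact inv_eq_of_mul_eq_one_right (by rw [← pow_succ']; exact gamma_pow)
  have hoct : ∀ i p, octFun i (π.1.symm p) ≠ 0 → octFun i p ≠ 0 := by
    intro i p hp
    obtain ⟨s, hs, h⟩ := monomial_fix_short (x := (c, π))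
      (v := ⟨_, mem_leech_of_check (pos_facts.2.2.2 i).1⟩) (pos_facts.2.2.2 i).2.1
      (hfix _ (cg_of_fixed fun q => ((pos_facts.2.2.2 i).2.2.2 q).1))
    intro h0
    have h1 := h p
    simp only [h0, mul_zero] at h1
    split_ifs at h1 <;> exact hp (by omega)
  have hcyc : ∀ i, ∃ k : Fin 7, π.1 (idxPt (cycPt i 0)) = idxPt (cycPt i k) := by
    intro i
    have h0 : octFun i (π.1 (idxPt (cycPt i 0))) ≠ 0 := by
      refine hoct i _ ?_
      rw [Equiv.symm_apply_apply]
      exact (start_facts i).1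
    rcases ((pos_facts.2.2.2 i).2.2.2 _).2.2 h0 with h | h
    · rw [← hπfix i] at h
      exact absurd (π.1.injective h) (start_facts i).2
    · exact h
  choose j hj using hcyc
  have hval := perm_value hπσ hπfix hj
  have hok : CandOK e j := by
    intro a b
    have h := code_orth (M24_isCode π.2 (basisWord_mem a)) (basisWord_mem b)
    rw [dot₂_apply, ← Equiv.sum_comp π.1] at h
    simp only [Equiv.symm_apply_apply] at h
    simp only [hval] at h
    exact h
  have hj3 : j = ![j 0, j 1, j 2] := by funext i; fin_cases i <;> rfl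
  rw [hj3] at hok
  rcases he with rfl | rfl
  swap
  · exact absurd hok (cand_rigid_minus _ _ _)
  obtain ⟨h1, h2⟩ := cand_rigid_plus _ _ _ hok
  have hji : ∀ i, j i = j 0 := by intro i; fin_cases i <;> [rfl; exact h1; exact h2]
  have hπ : π = monoPerm 0 ^ (j 0 : ℕ) := by
    refine Subtype.ext (Equiv.ext fun p => ?_)
    rw [hval, monoPerm_iterate, cand_diag hji]
  rw [hsplit, hπ, map_pow, ← gamma_eq_perm]
  exact Subgroup.mul_mem_sup hw (Subgroup.pow_mem _ (Subgroup.mem_zpowers _) _)

end CfsgLib.MonsterSeven49
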