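import Mathlib
import Cfsg.Agent.MonsterCent13.Generic
import Cfsg.Agent.Leech.Monster.Orbits

set_option autoImplicit false

/-! Involutions of `C(z)` over conjugates of sign changes, and lifts of elements of odd prime order. -/

namespace CfsgLib.MonsterSeven49

open Cfsg CfsgLib.Leech

theorem mem_centre_of_match_one {G : Type*} [Group G] {z : G}
    {Q : Subgroup (Subgroup.centralizer ({z} : Set G))} [Q.Normal]
    {e : (Subgroup.centralizer ({z} : Set G)) ⧸ Q ≃* Spor.Co1}
    {h : Subgroup.centralizer ({z} : Set G)} {g : Co0} (hm : Match e h g) (hQ : h ∈ Q) :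
    g ∈ Subgroup.center Co0 := by
  rw [← QuotientGroup.eq_one_iff, ← map_one e, ← (QuotientGroup.eq_one_iff h).2 hQ]
  exact hm

variable {G : Type*} [Group G] [Finite G] {z : G}
variable {Q : Subgroup (Subgroup.centralizer ({z} : Set G))} [Q.Normal]
variable {e : (Subgroup.centralizer ({z} : Set G)) ⧸ Q ≃* Spor.Co1}
variable {ψ : leechLattice → Q ⧸ Subgroup.center Q}
variable (hc : Ctx z Q e ψ)
include hc

/-- A conjugate of a sign change lifts to an involution of `C(z)`. -/
theorem exists_involution_lift {t : Co0} {c : GolayPt → ZMod 2} (hcc : c ∈ golayCode)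
    (hne : t * signs c hcc * t⁻¹ ∉ Subgroup.center Co0) :
    ∃ i : Subgroup.centralizer ({z} : Set G), i * i = 1 ∧ Match e i (t * signs c hcc * t⁻¹) := by
  classical
  obtain ⟨x, hx⟩ := QuotientGroup.mk_surjective (ψ (t • axisVec none))
  have hrel : Rel (t • axisVec none) (axisVec none) :=
    ⟨t⁻¹, by rw [inv_smul_smul]; exact Cg.refl _⟩
  obtain ⟨hconj, hxne⟩ := (hc.conj_iff_frame hx.symm).2 hrel
  obtain ⟨g, hp⟩ := exists_conjPair_of_isConj hconj hxne
  obtain ⟨hM, -, hlift⟩ := hc.meet_orders hp hx.symm (t := t⁻¹)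
    (by rw [inv_smul_smul]; exact Cg.refl _)
  have hγ : t * signs c hcc * t⁻¹ ∈ liftE e g := by
    have hs : signs c hcc ∈ (liftE e g).map (MulAut.conj t⁻¹).toMonoidHom := by
      rw [hlift]; exact ⟨Multiplicative.ofAdd ⟨c, hcc⟩, rfl⟩
    obtain ⟨γ, hγ, e'⟩ := hs
    rw [show t * signs c hcc * t⁻¹ = γ by
      rw [← e']; show t * (t⁻¹ * γ * t⁻¹⁻¹) * t⁻¹ = γ; group]
    exact hγ
  obtain ⟨r, hr, hm⟩ := (hc.mem_liftE hp).1 hγ
  have hrQ : r ∉ Q := fun h => hne (mem_centre_of_match_one hm h)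
  set R := hc.qG.map (MulAut.conj g).toMonoidHom with hR
  set s := g * z * g⁻¹ with hs
  have D : SymplecticType.Datum R s := hc.conj_datum hp
  have hsq : ∀ u ∈ R, u * u = 1 ∨ u * u = s := fun u hu =>
    D.uniq _ (mul_mem hu hu) (fun q hq => D.sq_central u hu q hq) (D.four u hu)
  rcases hsq (r : G) hr with h | h
  · exact ⟨r, Subtype.ext h, hm⟩
  set M := (interC z Q g).subgroupOf Q with hMd
  let ι : Q →* G := (Subgroup.centralizer ({z} : Set G)).subtype.comp Q.subtype
  have hι : Function.Injective ι := fun a b h => Subtype.ext (Subtype.ext h)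
  have hMR : ∀ m ∈ M, ι m ∈ R := fun m hm' => hm'
  obtain ⟨m, hmM, hmr⟩ : ∃ m ∈ M, (r : G) * ι m ≠ ι m * (r : G) := by
    by_contra hall
    push Not at hall
    let f : Q →* G := (MulAut.conj g).toMonoidHom.comp ι
    have hf : Function.Injective f := (MulAut.conj g).injective.comp hι
    set S : Set G := insert (r : G) (ι '' M) with hS
    have hSc : ∀ a ∈ S, ∀ b ∈ S, a * b = b * a := by
      have habel : ∀ a ∈ M, ∀ b ∈ M, ι a * ι b = ι b * ι a := fun a ha b hb => by
        rw [← map_mul, ← map_mul, hc.meet_abelian hp a ha b hb]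
      rintro a (rfl | ⟨a, ha, rfl⟩) b (rfl | ⟨b, hb, rfl⟩)
      · rfl
      · exact hall b hb
      · exact (hall a ha).symm
      · exact habel a ha b hb
    have hSR : Subgroup.closure S ≤ f.range := by
      refine (Subgroup.closure_le _).2 ?_
      have key : ∀ u ∈ R, u ∈ f.range := by
        rintro _ ⟨_, ⟨q, hq, rfl⟩, rfl⟩
        exact ⟨⟨q, hq⟩, rfl⟩
      rintro a (rfl | ⟨a, ha, rfl⟩)
      · exact key _ hr
      · exact key _ (hMR a ha)
    have hcomm : ∀ a ∈ Subgroup.closure S, ∀ b ∈ Subgroup.closure S, a * b = b * a := by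
      intro a ha b hb
      letI := Subgroup.closureCommGroupOfComm hSc
      exact congrArg Subtype.val (mul_comm (⟨a, ha⟩ : Subgroup.closure S) ⟨b, hb⟩)
    have hAle := abelian_card_sq_le (psi_pairing hc.iso) hc.setting.2.2.1.2
      ((Subgroup.closure S).comap f)
      (fun a ha b hb => hf (by rw [map_mul, map_mul]; exact hcomm _ ha _ hb))
    rw [hc.setting.2.2.2.1, ← Subgroup.card_map_of_injective hf,
      Subgroup.map_comap_eq_self hSR] at hAle
    have hlt : M.map ι < Subgroup.closure S := by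
      refine lt_of_le_of_ne ?_ ?_
      · rintro _ ⟨a, ha, rfl⟩
        exact Subgroup.subset_closure (Or.inr ⟨a, ha, rfl⟩)
      · intro he
        have : (r : G) ∈ M.map ι := he ▸ Subgroup.subset_closure (Or.inl rfl)
        obtain ⟨a, -, ha⟩ := this
        exact hrQ (by rw [← show (a : Subgroup.centralizer ({z} : Set G)) = r from Subtype.ext ha]; exact a.2)
    have hd := Subgroup.card_dvd_of_le hlt.le
    have hne' : Nat.card (M.map ι) ≠ Nat.card (Subgroup.closure S) := fun e' =>
      hlt.ne (Subgroup.eq_of_le_of_card_ge hlt.le (le_of_eq e'.symm))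
    rw [Subgroup.card_map_of_injective hι, hM] at hd hne'
    obtain ⟨k, hk⟩ := hd
    rw [hk] at hAle hne'
    rcases k with _ | _ | k
    · exact Nat.card_pos.ne' (by rw [hk, mul_zero])
    · exact hne' (by norm_num)
    · norm_num at hAle; nlinarith
  have hmR : ι m ∈ R := hMR m hmM
  have hcm : (r : G) * ι m * (r : G)⁻¹ * (ι m)⁻¹ = s :=
    (D.comm _ hr _ hmR).resolve_left fun h' => hmr (SymplecticType.commute_of_comm_eq h')
  have hmm : ι m * ι m = 1 := by
    rcases hsq _ hmR with h' | h'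
    · exact h'
    exfalso
    have hmq : ι m ∈ hc.qG := hc.mem_qG.2 ⟨m, rfl⟩
    rcases hc.datum.uniq _ (mul_mem hmq hmq) (fun q hq => hc.datum.sq_central _ hmq q hq)
      (hc.datum.four _ hmq) with h'' | h''
    · exact D.ne_one (h'.symm.trans h'')
    · exact hp.ne (h'.symm.trans h'')
  refine ⟨(m : Subgroup.centralizer ({z} : Set G)) * r, Subtype.ext ?_, hm.mul_mem m.2⟩
  show ι m * (r : G) * (ι m * (r : G)) = 1
  rw [show ι m * (r : G) * (ι m * (r : G)) = ι m * ((r : G) * ι m * ((r : G) * ι m)) * (ι m)⁻¹ by group]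
  suffices h' : (r : G) * ι m * ((r : G) * ι m) = 1 by rw [h', mul_one, mul_inv_cancel]
  have h1 : (r : G) * ι m = s * (ι m * (r : G)) := by rw [← hcm]; group
  have h2 : ι m * s = s * ι m := D.central _ hmR
  calc (r : G) * ι m * ((r : G) * ι m) = s * (ι m * (r : G)) * ((r : G) * ι m) := by rw [← h1]
    _ = s * ι m * ((r : G) * (r : G)) * ι m := by group
    _ = s * ι m * s * ι m := by rw [h]
    _ = (s * s) * (ι m * ι m) := by rw [mul_assoc s (ι m) s, h2]; group
    _ = 1 := by rw [D.sq, hmm, one_mul]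

variable {p : ℕ} [Fact p.Prime]

/-- Two elements of order dividing `p` in one coset of `Q` are conjugate under `Q`. -/
theorem exists_conj_coset (hp2 : p ≠ 2) {b v : Subgroup.centralizer ({z} : Set G)}
    (hb : b ^ p = 1) (hv : v ^ p = 1) (hbv : b * v⁻¹ ∈ Q) : ∃ x ∈ Q, x * v * x⁻¹ = b := by
  classical
  haveI := Fintype.ofFinite G
  have hmap : ∀ x ∈ Q, b * x * v⁻¹ ∈ Q := fun x hx => by
    rw [show b * x * v⁻¹ = b * x * b⁻¹ * (b * v⁻¹) by group]
    exact mul_mem ((inferInstance : Q.Normal).conj_mem _ hx b) hbv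
  let f : Q → Q := fun x => ⟨_, hmap x x.2⟩
  have hinj : Function.Injective f := fun a c h => Subtype.ext (by
    have h' := congrArg Subtype.val h
    exact mul_left_cancel (mul_right_cancel h'))
  let σ : Equiv.Perm Q := Equiv.ofBijective f (Finite.injective_iff_bijective.1 hinj)
  have hσ : ∀ (n : ℕ) (x : Q), ((σ ^ n) x).1 = b ^ n * x.1 * (v ^ n)⁻¹ := by
    intro n
    induction n with
    | zero => intro x; simp
    | succ n ih =>
      intro x
      rw [pow_succ', Equiv.Perm.mul_apply]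
      show b * ((σ ^ n) x).1 * v⁻¹ = _
      rw [ih, pow_succ', pow_succ v n]
      group
  have hσp : σ ^ p ^ 1 = 1 := Equiv.ext fun x => Subtype.ext (by
    rw [pow_one, hσ, hb, hv, inv_one, mul_one, one_mul]; rfl)
  obtain ⟨x, hx⟩ := Equiv.Perm.exists_fixed_point_of_prime
    (α := Q) (by rw [← Nat.card_eq_fintype_card]
                 exact MonsterCent13.not_dvd_card_le_Q hc Fact.out hp2 le_rfl) hσp
  refine ⟨x.1, x.2, ?_⟩
  have h : b * x.1 * v⁻¹ = x.1 := congrArg Subtype.val hx
  calc x.1 * v * x.1⁻¹ = (b * x.1 * v⁻¹) * v * x.1⁻¹ := by rw [h]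
    _ = b := by group

end CfsgLib.MonsterSeven49
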