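import Mathlib
import Cfsg.Agent.MonsterSeven49.Faith
import Cfsg.Agent.MonsterSeven49.Lift
import Cfsg.Agent.MonsterCent13.Main

set_option autoImplicit false

/-! The chosen element of order 7 in `C(z)`, the elements inverting and squaring it, and the
rigidity of its action on the fixed part of `Q`. -/

namespace CfsgLib.MonsterSeven49

open Cfsg CfsgLib.Leech
open CfsgLib.MonsterCent13 (exists_lift_commute exists_move exists_swap_commute)

theorem negOne_seven : negOne ^ 7 ≠ 1 := by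
  intro h
  have h2 : negOne ^ 2 = 1 := by
    refine co0_ext fun i => ?_
    rw [pow_two, mul_smul, one_smul, negOne_smul, negOne_smul, neg_neg]
  rw [show 7 = 2 * 3 + 1 from rfl, pow_succ, pow_mul, h2, one_pow, one_mul] at h
  have h4 := congrArg (fun c : Co0 => ((c • axisVec none : leechLattice) : GolayPt → ℤ) none) h
  simp [negOne_smul, axisVec, single] at h4

/-- Elements with seventh power one that agree modulo the centre are equal. -/
theorem eq_of_mod_center {a c : Co0} (ha : a ^ 7 = 1) (hc : c ^ 7 = 1)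
    (h : (QuotientGroup.mk a : Co0 ⧸ Subgroup.center Co0) = QuotientGroup.mk c) : a = c := by
  rcases center_co0_cases (QuotientGroup.eq.1 h) with r | r
  · exact inv_mul_eq_one.1 r
  · exfalso
    have hcn : Commute a negOne := Subgroup.mem_center_iff.1 negOne_central a
    have h1 : c = a * negOne := by rw [← r, mul_inv_cancel_left]
    rw [h1, hcn.mul_pow, ha, one_mul] at hc
    exact negOne_seven hc

theorem gamma_not_central : γ₀ ∉ Subgroup.center Co0 := fun h => by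
  rcases center_co0_cases h with r | r
  · exact gamma_ne_one r
  · exact negOne_seven (r ▸ gamma_pow)

theorem gamma_sq_ne_one : γ₀ ^ 2 ≠ 1 := fun h => by
  refine gamma_ne_one ?_
  have := gamma_pow
  rwa [show 7 = 2 * 3 + 1 from rfl, pow_succ, pow_mul, h, one_pow, one_mul] at this

variable {G : Type*} [Group G] [Finite G] {z : G}
variable {Q : Subgroup (Subgroup.centralizer ({z} : Set G))} [Q.Normal]
variable {e : (Subgroup.centralizer ({z} : Set G)) ⧸ Q ≃* Spor.Co1}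
variable {ψ : leechLattice → Q ⧸ Subgroup.center Q}

theorem match_one : Match e 1 1 := by simp [Match]

theorem match_pow {h : Subgroup.centralizer ({z} : Set G)} {g : Co0} (hm : Match e h g) :
    ∀ n : ℕ, Match e (h ^ n) (g ^ n)
  | 0 => by simp [Match]
  | n + 1 => by rw [pow_succ, pow_succ]; exact (match_pow hm n).mul hm

variable (hc : Ctx z Q e ψ)
include hc

theorem pow_card_Q {h : Subgroup.centralizer ({z} : Set G)} (hh : h ∈ Q) : h ^ 2 ^ 25 = 1 := by
  have h1 := pow_card_eq_one' (x := (⟨h, hh⟩ : Q))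
  rw [hc.setting.2.2.2.1] at h1
  exact congrArg Subtype.val h1

theorem mem_Q_of_match {h : Subgroup.centralizer ({z} : Set G)} (hm : Match e h 1) : h ∈ Q := by
  have h1 : (QuotientGroup.mk h : (Subgroup.centralizer ({z} : Set G)) ⧸ Q) = 1 := by
    refine e.injective ?_
    rw [map_one, ← hm, QuotientGroup.mk_one]
  exact (QuotientGroup.eq_one_iff h).1 h1

/-- A lift of order dividing 7. -/
theorem exists_seven : ∃ b : Subgroup.centralizer ({z} : Set G), b ^ 7 = 1 ∧ Match e b γ₀ := by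
  obtain ⟨h, hh⟩ := exists_match_left (e := e) γ₀
  have h7 : h ^ 7 ∈ Q := mem_Q_of_match hc (gamma_pow ▸ match_pow hh 7)
  refine ⟨h ^ (4 * 2 ^ 25), ?_, ?_⟩
  · rw [← pow_mul, mul_comm, pow_mul, mul_comm 4, pow_mul, pow_card_Q hc h7, one_pow]
  · have := match_pow hh (4 * 2 ^ 25)
    rwa [pow_eq_pow_mod (4 * 2 ^ 25) gamma_pow, show 4 * 2 ^ 25 % 7 = 1 by norm_num, pow_one] at this

variable {b : Subgroup.centralizer ({z} : Set G)}

theorem seven_ne_one (hm : Match e b γ₀) : (b : G) ≠ 1 := fun h =>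
  gamma_not_central (mem_centre_of_match_one hm (by rw [show b = 1 from Subtype.ext h]; exact one_mem Q))

/-- An element carrying `b` to `b` or its inverse and centralising the fixed part of `Q` lies in
`Q⟨b⟩` and centralises `b`. -/
theorem rigid (hb : b ^ 7 = 1) (hm : Match e b γ₀) {k : Subgroup.centralizer ({z} : Set G)}
    (hk : k * b * k⁻¹ = b ∨ k * b * k⁻¹ = b⁻¹)
    (hfix : ∀ q : Q, Commute b (q : Subgroup.centralizer ({z} : Set G)) →
      Commute k (q : Subgroup.centralizer ({z} : Set G))) :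
    (∃ n : ℕ, k * b ^ n ∈ Q) ∧ k * b * k⁻¹ = b := by
  haveI : Fact (Nat.Prime 7) := ⟨by norm_num⟩
  obtain ⟨g, hg⟩ := exists_match_right (e := e) k
  have hgconj : g * γ₀ * g⁻¹ = γ₀ ∨ g * γ₀ * g⁻¹ = γ₀⁻¹ := by
    have h1 := (hg.mul hm).mul hg.inv
    have h7 : (g * γ₀ * g⁻¹) ^ 7 = 1 := by rw [conj_pow, gamma_pow]; group
    rcases hk with h | h <;> rw [h] at h1
    · exact Or.inl (eq_of_mod_center h7 gamma_pow (h1.trans hm.symm))
    · exact Or.inr (eq_of_mod_center h7 (by rw [inv_pow, gamma_pow, inv_one]) (h1.trans hm.inv.symm))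
  have hmem := faith₀ hgconj fun v hv => by
    obtain ⟨q, hq, hcom⟩ := exists_lift_commute hc (p := 7) (by norm_num) hb hm hv
    have h1 := hc.conj_class hg hq
    rw [show (⟨k * q * k⁻¹, (inferInstance : Q.Normal).conj_mem _ q.2 k⟩ : Q) = q from
      Subtype.ext (by show k * _ * k⁻¹ = _; rw [(hfix q hcom).eq, mul_inv_cancel_right])] at h1
    exact (psi_eq_iff hc.iso _ _).1 (h1.trans hq.symm)
  obtain ⟨w, hw, d, hd, hwd⟩ := Subgroup.mem_sup_of_normal_left.1 hmem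
  obtain ⟨i, hi⟩ : ∃ n : ℕ, γ₀ ^ n = d := mem_powers_iff_mem_zpowers.2 hd
  refine ⟨⟨6 * i, mem_Q_of_match hc ?_⟩, ?_⟩
  · have h1 := hg.mul (match_pow hm (6 * i))
    rw [← hwd, ← hi, mul_assoc, ← pow_add, show i + 6 * i = 7 * i by omega, pow_mul γ₀ 7 i, gamma_pow,
      one_pow, mul_one, Match, (QuotientGroup.eq_one_iff w).2 hw] at h1
    exact h1
  · rcases hk with h | h
    · exact h
    exfalso
    have hcomm : g * γ₀ * g⁻¹ = γ₀ := by
      rw [← hwd, ← hi]
      have hwc := Subgroup.mem_center_iff.1 hw (γ₀ ^ i * γ₀ * (γ₀ ^ i)⁻¹)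
      calc w * γ₀ ^ i * γ₀ * (w * γ₀ ^ i)⁻¹ = w * (γ₀ ^ i * γ₀ * (γ₀ ^ i)⁻¹) * w⁻¹ := by group
        _ = γ₀ := by rw [← hwc]; group
    have h1 := (hg.mul hm).mul hg.inv
    rw [h, hcomm] at h1
    have h2 : γ₀ = γ₀⁻¹ :=
      eq_of_mod_center gamma_pow (by rw [inv_pow, gamma_pow, inv_one]) (h1.trans hm.inv.symm)
    exact gamma_sq_ne_one (by rw [pow_two]; nth_rewrite 2 [h2]; rw [mul_inv_cancel])

/-- The central frame and a second one with noncommuting lifts, both fixed by `b`. -/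
theorem exists_pair (hb : b ^ 7 = 1) (hm : Match e b γ₀) :
    ∃ (g₀ g₁ : G) (s₀ s₁ : Q), ConjPair z Q g₀ s₀ ∧ ConjPair z Q g₁ s₁ ∧
      Commute b (s₀ : Subgroup.centralizer ({z} : Set G)) ∧
      Commute b (s₁ : Subgroup.centralizer ({z} : Set G)) ∧ s₀ * s₁ ≠ s₁ * s₀ := by
  haveI : Fact (Nat.Prime 7) := ⟨by norm_num⟩
  have h0 : Cg (γ₀ • axisVec none) (axisVec none) := cg_of_fixed axis_fixed
  have h1 : Cg (γ₀ • oddFrame) oddFrame := cg_of_fixed oddFrame_facts.2.2.1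
  obtain ⟨s₀, hs₀, hc₀⟩ := exists_lift_commute hc (p := 7) (by norm_num) hb hm h0
  obtain ⟨s₁, hs₁, hc₁⟩ := exists_lift_commute hc (p := 7) (by norm_num) hb hm h1
  obtain ⟨a₀, b₀⟩ := (hc.conj_iff_frame hs₀).2 ⟨1, by rw [one_smul]; exact Cg.refl _⟩
  obtain ⟨a₁, b₁⟩ := (hc.conj_iff_frame hs₁).2 (rel_norm64 _ oddFrame_facts.1)
  obtain ⟨g₀, hp₀⟩ := exists_conjPair_of_isConj a₀ b₀
  obtain ⟨g₁, hp₁⟩ := exists_conjPair_of_isConj a₁ b₁
  refine ⟨g₀, g₁, s₀, s₁, hp₀, hp₁, hc₀, hc₁, fun h => ?_⟩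
  rw [hc.pairing_iff hs₀ hs₁, oddFrame_facts.2.1] at h
  exact one_ne_zero h

/-- An involution of `C(z)` inverting `b`. -/
theorem exists_inverting (hb : b ^ 7 = 1) (hm : Match e b γ₀) :
    ∃ t : Subgroup.centralizer ({z} : Set G), orderOf (t : G) = 2 ∧ t * b * t⁻¹ = b⁻¹ := by
  haveI : Fact (Nat.Prime 7) := ⟨by norm_num⟩
  have hτ : τ₀ ∉ Subgroup.center Co0 := fun h => by
    have h1 := tau_conj
    rw [← Subgroup.mem_center_iff.1 h γ₀, mul_inv_cancel_right] at h1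
    exact gamma_sq_ne_one (by rw [pow_two]; nth_rewrite 2 [h1]; rw [mul_inv_cancel])
  obtain ⟨i, hi, him⟩ := exists_involution_lift hc (monoWord 2).2 hτ
  have hii : i⁻¹ = i := inv_eq_of_mul_eq_one_right hi
  set u := i * (b * i * b⁻¹) with hu
  have hinv : i * u * i⁻¹ = u⁻¹ := by
    have e1 : (b * i * b⁻¹)⁻¹ = b * i * b⁻¹ := by rw [mul_inv_rev, mul_inv_rev, inv_inv, hii, mul_assoc]
    rw [hu, mul_inv_rev, e1, hii, ← mul_assoc i i, hi, one_mul]
  have hum : Match e u (γ₀⁻¹ * γ₀⁻¹) := by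
    have h1 := (him.mul hm).mul him.inv
    have h2 : Match e (i * b * i⁻¹ * b⁻¹) (γ₀⁻¹ * γ₀⁻¹) := by
      have := h1.mul hm.inv
      rwa [show base₀ * signs (monoWord 2).1 (monoWord 2).2 * base₀⁻¹ = τ₀ from rfl, tau_conj] at this
    rwa [hu, show i * (b * i * b⁻¹) = i * b * i⁻¹ * b⁻¹ by rw [hii]; group]
  set v := u ^ (5 * 2 ^ 25) with hv
  have hu7 : u ^ 7 ∈ Q := by
    refine mem_Q_of_match hc ?_
    have := match_pow hum 7
    rwa [(Commute.refl γ₀⁻¹).mul_pow, inv_pow, gamma_pow, inv_one, one_mul] at this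
  have hv7 : v ^ 7 = 1 := by
    rw [hv, ← pow_mul, show 5 * 2 ^ 25 * 7 = 7 * 2 ^ 25 * 5 by norm_num, pow_mul, pow_mul,
      pow_card_Q hc hu7, one_pow]
  have hvm : Match e v γ₀ := by
    have := match_pow hum (5 * 2 ^ 25)
    rwa [show γ₀⁻¹ * γ₀⁻¹ = γ₀ ^ 5 by
        rw [← mul_inv_rev, inv_eq_of_mul_eq_one_right]
        rw [← pow_two, ← pow_add]; exact gamma_pow,
      ← pow_mul, pow_eq_pow_mod (5 * (5 * 2 ^ 25)) gamma_pow,
      show 5 * (5 * 2 ^ 25) % 7 = 1 by norm_num, pow_one] at this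
  have hbv : b * v⁻¹ ∈ Q := mem_Q_of_match hc (by simpa using hm.mul hvm.inv)
  obtain ⟨x, -, hx⟩ := exists_conj_coset hc (by norm_num) hb hv7 hbv
  have hiv : i * v * i⁻¹ = v⁻¹ := by rw [hv, ← conj_pow, hinv, inv_pow]
  refine ⟨x * i * x⁻¹, ?_, ?_⟩
  · refine orderOf_eq_prime ?_ ?_
    · have : (x * i * x⁻¹) ^ 2 = 1 := by rw [conj_pow, pow_two, hi]; group
      exact congrArg Subtype.val this
    · intro h
      have h1 : i = 1 := by
        have h2 : x * i * x⁻¹ = 1 := Subtype.ext h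
        calc i = x⁻¹ * (x * i * x⁻¹) * x := by group
          _ = 1 := by rw [h2]; group
      exact hτ (mem_centre_of_match_one him (h1 ▸ one_mem Q))
  · calc x * i * x⁻¹ * b * (x * i * x⁻¹)⁻¹ = x * i * x⁻¹ * (x * v * x⁻¹) * (x * i * x⁻¹)⁻¹ := by rw [hx]
      _ = x * (i * v * i⁻¹) * x⁻¹ := by group
      _ = (x * v * x⁻¹)⁻¹ := by rw [hiv]; group
      _ = b⁻¹ := by rw [hx]

/-- An element of `C(z)` squaring `b`. -/
theorem exists_squaring (hb : b ^ 7 = 1) (hm : Match e b γ₀) :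
    ∃ h : Subgroup.centralizer ({z} : Set G), h * b * h⁻¹ = b ^ 2 := by
  haveI : Fact (Nat.Prime 7) := ⟨by norm_num⟩
  obtain ⟨h, hh⟩ := exists_match_left (e := e) ρ₀
  have h7 : (h * b * h⁻¹) ^ 7 = 1 := by rw [conj_pow, hb]; group
  have hb2 : (b ^ 2) ^ 7 = 1 := by rw [← pow_mul, mul_comm, pow_mul, hb, one_pow]
  have hbv : b ^ 2 * (h * b * h⁻¹)⁻¹ ∈ Q := by
    refine mem_Q_of_match hc ?_
    have h1 := (match_pow hm 2).mul (((hh.mul hm).mul hh.inv).inv)
    rwa [rho_conj, mul_inv_cancel] at h1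
  obtain ⟨x, -, hx⟩ := exists_conj_coset hc (by norm_num) hb2 h7 hbv
  exact ⟨x * h, by rw [← hx]; group⟩

end CfsgLib.MonsterSeven49
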