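import Mathlib
import Cfsg.Agent.MonsterSeven49.Element
import Cfsg.Agent.FStar.SelfCentralizing

set_option autoImplicit false

/-! The centraliser of `b` has central generalised Fitting part `⟨b⟩`, and an inverting involution
is not inner on its layer. -/

namespace CfsgLib.MonsterSeven49

open Cfsg CfsgLib.Leech
open CfsgLib.MonsterCent13 (exists_move exists_swap_commute)

/-- An involutory automorphism without fixed points except one inverts. -/
theorem eq_inv_of_fpf {M : Type*} [Group M] [Finite M] (f : M →* M) (hff : ∀ x, f (f x) = x)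
    (hfix : ∀ x, f x = x → x = 1) : ∀ x, f x = x⁻¹ := fun x =>
  congrFun (MonoidHom.FixedPointFree.coe_eq_inv_of_involutive hfix hff) x

/-- A normal subgroup of odd order on which three involutions `a`, `c`, `ac` have only central
fixed points is central. -/
theorem le_of_three_involutions {K : Type*} [Group K] [Finite K] (Z N : Subgroup K) [Z.Normal]
    [N.Normal] (hZ : ∀ w ∈ Z, ∀ k : K, k * w = w * k) (hN : Odd (Nat.card N)) {a c : K}
    (ha : a * a = 1) (hc : c * c = 1) (hac : a * c = c * a)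
    (h1 : ∀ x ∈ N, a * x = x * a → x ∈ Z) (h2 : ∀ x ∈ N, c * x = x * c → x ∈ Z)
    (h3 : ∀ x ∈ N, a * c * x = x * (a * c) → x ∈ Z) : N ≤ Z := by
  set M := N.map (QuotientGroup.mk' Z) with hM
  have key : ∀ u : K, u * u = 1 → (∀ x ∈ N, u * x = x * u → x ∈ Z) →
      ∀ x ∈ N, u * x * u⁻¹ * x ∈ Z := by
    intro u hu hfix x hx
    let f : M →* M := MonoidHom.mk'
      (fun y => ⟨QuotientGroup.mk u * y.1 * (QuotientGroup.mk u)⁻¹, by
        obtain ⟨y0, hy0, he⟩ := y.2
        exact ⟨u * y0 * u⁻¹, (inferInstance : N.Normal).conj_mem _ hy0 u, by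
          rw [map_mul, map_mul, map_inv, he]; rfl⟩⟩)
      (fun p q => Subtype.ext (by simp only [Subgroup.coe_mul]; group))
    have hui : u⁻¹ = u := inv_eq_of_mul_eq_one_right hu
    have hff : ∀ y, f (f y) = y := fun y => Subtype.ext (by
      show QuotientGroup.mk u * (QuotientGroup.mk u * y.1 * (QuotientGroup.mk u)⁻¹) *
        (QuotientGroup.mk u)⁻¹ = y.1
      rw [← QuotientGroup.mk_inv, hui, show ∀ (A B : K ⧸ Z), A * (A * B * A) * A = (A * A) * B * (A * A)
        from fun A B => by group, ← QuotientGroup.mk_mul, hu, QuotientGroup.mk_one, one_mul, mul_one])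
    have hfp : ∀ y, f y = y → y = 1 := by
      rintro ⟨_, y0, hy0, rfl⟩ h
      have h' : (QuotientGroup.mk (u * y0 * u⁻¹) : K ⧸ Z) = QuotientGroup.mk y0 := congrArg Subtype.val h
      set w := y0⁻¹ * (u * y0 * u⁻¹) with hw
      have hwZ : w ∈ Z := QuotientGroup.eq.1 h'.symm
      have hwN : w ∈ N := mul_mem (inv_mem hy0) ((inferInstance : N.Normal).conj_mem _ hy0 u)
      have e1 : u * y0 * u⁻¹ = y0 * w := by rw [hw]; group
      have e2 : y0 = y0 * (w * w) := by
        calc y0 = u * (u * y0 * u⁻¹) * u⁻¹ := by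
              rw [hui, show ∀ A B : K, A * (A * B * A) * A = (A * A) * B * (A * A) from
                fun A B => by group, hu, one_mul, mul_one]
          _ = u * (y0 * w) * u⁻¹ := by rw [e1]
          _ = (u * y0 * u⁻¹) * (u * w * u⁻¹) := by group
          _ = y0 * (w * w) := by rw [e1, hZ w hwZ u, mul_inv_cancel_right, mul_assoc]
      have hw2 : w ^ 2 = 1 := by rw [pow_two]; exact mul_eq_left.1 e2.symm
      have hw1 : w = 1 := by
        refine orderOf_eq_one_iff.1 (Nat.eq_one_of_dvd_coprimes (Nat.coprime_two_left.2 hN)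
          (orderOf_dvd_of_pow_eq_one hw2) ?_)
        have := orderOf_dvd_natCard (⟨w, hwN⟩ : N)
        rwa [← Subgroup.orderOf_coe] at this
      rw [hw1, mul_one] at e1
      exact Subtype.ext ((QuotientGroup.eq_one_iff _).2 (hfix y0 hy0 (mul_inv_eq_iff_eq_mul.1 e1)))
    have := congrArg Subtype.val (eq_inv_of_fpf f hff hfp ⟨_, x, hx, rfl⟩)
    have h' : (QuotientGroup.mk (u * x * u⁻¹) : K ⧸ Z) = (QuotientGroup.mk x)⁻¹ := this
    rw [← QuotientGroup.eq_one_iff, QuotientGroup.mk_mul, h', inv_mul_cancel]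
  intro x hx
  have hi : (a * c) * (a * c) = 1 := by
    rw [show (a * c) * (a * c) = a * (c * a) * c by group, ← hac,
      show a * (a * c) * c = (a * a) * (c * c) by group, ha, hc, one_mul]
  have k1 := key a ha h1 x hx
  have k2 := key c hc h2 x hx
  have k3 := key (a * c) hi h3 x hx
  rw [← QuotientGroup.eq_one_iff] at k1 k2 k3 ⊢
  simp only [QuotientGroup.mk_mul, QuotientGroup.mk_inv] at k1 k2 k3 ⊢
  have hXN : (QuotientGroup.mk x : K ⧸ Z) ^ Nat.card N = 1 := by
    rw [← QuotientGroup.mk_pow, show x ^ Nat.card N = 1 from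
      congrArg Subtype.val (pow_card_eq_one' (x := (⟨x, hx⟩ : N)))]
    rfl
  generalize (QuotientGroup.mk x : K ⧸ Z) = X at k1 k2 k3 hXN ⊢
  generalize (QuotientGroup.mk a : K ⧸ Z) = A at k1 k3
  generalize (QuotientGroup.mk c : K ⧸ Z) = C at k2 k3
  have e1 : A * X * A⁻¹ = X⁻¹ := mul_eq_one_iff_eq_inv.1 k1
  have e2 : C * X * C⁻¹ = X⁻¹ := mul_eq_one_iff_eq_inv.1 k2
  have e3 : X * X = 1 := by
    rw [show A * C * X * (A * C)⁻¹ = A * (C * X * C⁻¹) * A⁻¹ by group, e2, ← conj_inv, e1, inv_inv] at k3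
    exact k3
  obtain ⟨m, hm⟩ := hN
  rw [hm, pow_succ, pow_mul, pow_two, e3, one_pow, one_mul] at hXN
  exact hXN

variable {G : Type*} [Group G] [Finite G] {z : G}
variable {Q : Subgroup (Subgroup.centralizer ({z} : Set G))} [Q.Normal]
variable {e : (Subgroup.centralizer ({z} : Set G)) ⧸ Q ≃* Spor.Co1}
variable {ψ : leechLattice → Q ⧸ Subgroup.center Q}
variable (hc : Ctx z Q e ψ) {b : Subgroup.centralizer ({z} : Set G)}

/-- The centraliser of `⟨b⟩`. -/
abbrev cb (b : Subgroup.centralizer ({z} : Set G)) : Subgroup G :=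
  Subgroup.centralizer ((Subgroup.zpowers (b : G) : Subgroup G) : Set G)

omit [Finite G] [Q.Normal] in
theorem mem_cb {x : G} : x ∈ cb b ↔ Commute (b : G) x := by
  rw [Subgroup.mem_centralizer_iff]
  constructor
  · exact fun h => h _ (Subgroup.mem_zpowers _)
  · intro h y hy
    obtain ⟨n, rfl⟩ := Subgroup.mem_zpowers_iff.1 hy
    exact (h.zpow_left n).eq

include hc

theorem commute_b_z : Commute (b : G) z := (Subgroup.mem_centralizer_iff.1 b.2 z rfl).symm

theorem zz : z * z = 1 := hc.datum.sq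

/-- An element of `C(z)` of order prime to the order of `b` and lying in `Q⟨b⟩` lies in `Q`. -/
theorem pow_b_eq_one {k : Subgroup.centralizer ({z} : Set G)} (hb : b ^ 7 = 1)
    (hk : Commute b k) {n : ℕ} (hn : k * b ^ n ∈ Q) {a : ℕ} (ha : k ^ 2 ^ a = 1) : b ^ n = 1 := by
  have h1 : (k * b ^ n) ^ 2 ^ (25 + a) = 1 := by rw [pow_add, pow_mul, pow_card_Q hc hn, one_pow]
  rw [((hk.pow_left n).symm).mul_pow, show 25 + a = a + 25 by omega, pow_add 2 a 25, pow_mul k,
    ha, one_pow, one_mul, ← pow_mul] at h1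
  refine orderOf_eq_one_iff.1 (Nat.eq_one_of_dvd_coprimes (a := 7) (b := 2 ^ a * 2 ^ 25) ?_
    (orderOf_dvd_of_pow_eq_one (by rw [← pow_mul, mul_comm, pow_mul, hb, one_pow]))
    (orderOf_dvd_of_pow_eq_one (by rw [← pow_mul]; exact h1)))
  rw [← pow_add]
  exact Nat.Coprime.pow_right _ (by norm_num)

/-- An element of odd order centralising `b` and `z` and normalised by nothing new is a power
of `b`. -/
theorem odd_mem_zpowers (hb : b ^ 7 = 1) (hm : Match e b γ₀) {N : Subgroup G}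
    (hle : N ≤ cb b) (hn : ∀ k ∈ cb b, ∀ x ∈ N, k * x * k⁻¹ ∈ N) (hN : Odd (Nat.card N))
    {x : G} (hx : x ∈ N) (hxz : Commute z x) : x ∈ Subgroup.zpowers (b : G) := by
  set k : Subgroup.centralizer ({z} : Set G) := ⟨x, Subgroup.mem_centralizer_singleton_iff.2 hxz.symm⟩
  have hbk : Commute b k := Subtype.ext (mem_cb.1 (hle hx)).eq
  have hfix : ∀ q : Q, Commute b (q : Subgroup.centralizer ({z} : Set G)) →
      Commute k (q : Subgroup.centralizer ({z} : Set G)) := by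
    intro q hq
    set c : Subgroup.centralizer ({z} : Set G) := k * q * k⁻¹ * (q : Subgroup.centralizer ({z} : Set G))⁻¹
    have hcQ : c ∈ Q := mul_mem ((inferInstance : Q.Normal).conj_mem _ q.2 k) (inv_mem q.2)
    have hqcb : ((q : Subgroup.centralizer ({z} : Set G)) : G) ∈ cb b :=
      mem_cb.2 (congrArg Subtype.val hq.eq)
    have hcN : (c : G) ∈ N := by
      have e1 : (c : G) = x * (((q : Subgroup.centralizer ({z} : Set G)) : G) * x⁻¹ *
          ((q : Subgroup.centralizer ({z} : Set G)) : G)⁻¹) := by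
        show x * ((q : Subgroup.centralizer ({z} : Set G)) : G) * x⁻¹ *
          ((q : Subgroup.centralizer ({z} : Set G)) : G)⁻¹ = _
        group
      rw [e1]
      exact mul_mem hx (hn _ hqcb _ (inv_mem hx))
    have h1 : (c : G) = 1 := by
      refine orderOf_eq_one_iff.1 (Nat.eq_one_of_dvd_coprimes (b := Nat.card N)
        ((Nat.coprime_two_left.2 hN).pow_left 25)
        (orderOf_dvd_of_pow_eq_one (congrArg Subtype.val (pow_card_Q hc hcQ))) ?_)
      have := orderOf_dvd_natCard (⟨_, hcN⟩ : N)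
      rwa [← Subgroup.orderOf_coe] at this
    have h2 : c = 1 := Subtype.ext h1
    exact mul_inv_eq_iff_eq_mul.1 (mul_inv_eq_one.1 h2)
  obtain ⟨⟨n, hn'⟩, -⟩ := rigid hc hb hm (Or.inl (by rw [← hbk.eq, mul_inv_cancel_right])) hfix
  set u := k * b ^ n with hu
  have h7 : u ^ (Nat.card N * 7) = 1 := by
    have hkN : k ^ Nat.card N = 1 := Subtype.ext
      (congrArg Subtype.val (pow_card_eq_one' (x := (⟨x, hx⟩ : N))) :)
    rw [hu, ((hbk.pow_left n).symm).mul_pow, pow_mul k, hkN, one_pow, one_mul, ← pow_mul, mul_comm,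
      mul_assoc, mul_comm 7, ← mul_assoc, pow_mul, mul_comm, ← pow_mul, mul_comm, pow_mul, hb, one_pow]
  have hu1 : u = 1 := by
    refine orderOf_eq_one_iff.1 (Nat.eq_one_of_dvd_coprimes (a := 2 ^ 25) (b := Nat.card N * 7) ?_
      (orderOf_dvd_of_pow_eq_one (pow_card_Q hc hn')) (orderOf_dvd_of_pow_eq_one h7))
    exact (Nat.coprime_two_left.2 (hN.mul ⟨3, rfl⟩)).pow_left 25
  have : x = ((b : G) ^ n)⁻¹ := eq_inv_of_mul_eq_one_left (congrArg Subtype.val hu1)
  rw [this]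
  exact inv_mem (Subgroup.pow_mem _ (Subgroup.mem_zpowers _) n)

/-- The element `z` as an element of the centraliser of `b`. -/
theorem z_mem_cb : z ∈ cb b := mem_cb.2 (commute_b_z hc)

/-- A normal subgroup of odd order of the centraliser is contained in `⟨b⟩`. -/
theorem odd_normal_le (hb : b ^ 7 = 1) (hm : Match e b γ₀) (N : Subgroup (cb b)) [N.Normal]
    (hN : Odd (Nat.card N)) : N ≤ (Subgroup.zpowers (b : G)).subgroupOf (cb b) := by
  haveI : Fact (Nat.Prime 7) := ⟨by norm_num⟩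
  obtain ⟨g₀, g₁, s₀, s₁, hp₀, hp₁, hc₀, hc₁, hne⟩ := exists_pair hc hb hm
  set N' := N.map (cb b).subtype with hN'
  have hle : N' ≤ cb b := Subgroup.map_subtype_le _
  have hn : ∀ k ∈ cb b, ∀ x ∈ N', k * x * k⁻¹ ∈ N' := by
    rintro k hk _ ⟨x, hx, rfl⟩
    exact ⟨_, (inferInstance : N.Normal).conj_mem _ hx ⟨k, hk⟩, rfl⟩
  have hodd : Odd (Nat.card N') := by
    rwa [hN', Subgroup.card_map_of_injective (cb b).subtype_injective]
  have hfixed : ∀ v : G, (∃ y ∈ cb b, y * z * y⁻¹ = v) → ∀ x ∈ N', v * x = x * v →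
      x ∈ Subgroup.zpowers (b : G) := by
    rintro _ ⟨y, hy, rfl⟩ x hx hvx
    have h1 : y⁻¹ * x * y ∈ Subgroup.zpowers (b : G) := by
      refine odd_mem_zpowers hc hb hm hle hn hodd ?_ ?_
      · simpa using hn y⁻¹ (inv_mem hy) x hx
      · show z * (y⁻¹ * x * y) = y⁻¹ * x * y * z
        calc z * (y⁻¹ * x * y) = y⁻¹ * (y * z * y⁻¹ * x) * y := by group
          _ = _ := by rw [hvx]; group
    obtain ⟨n, hn1⟩ := Subgroup.mem_zpowers_iff.1 h1
    refine Subgroup.mem_zpowers_iff.2 ⟨n, ?_⟩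
    have hyb : Commute ((b : G) ^ n) y := (mem_cb.1 hy).zpow_left n
    calc (b : G) ^ n = y * (b : G) ^ n * y⁻¹ := by rw [← hyb.eq, mul_inv_cancel_right]
      _ = x := by rw [hn1]; group
  obtain ⟨y, hby, hy⟩ := exists_move hc (p := 7) (by norm_num) hb hp₀ hc₀
  obtain ⟨w, hw, hcw⟩ := exists_swap_commute hc (p := 7) (by norm_num) hb (hc.sq_noncentral hp₀) hc₀
  set s := ((s₀ : Subgroup.centralizer ({z} : Set G)) : G) with hs
  have hwG : ((w : Subgroup.centralizer ({z} : Set G)) : G) * s *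
      ((w : Subgroup.centralizer ({z} : Set G)) : G)⁻¹ = s * z :=
    congrArg (fun q : Q => ((q : Subgroup.centralizer ({z} : Set G)) : G)) hw
  have hsb : s ∈ cb b := mem_cb.2 (congrArg Subtype.val hc₀.eq)
  have hss : s * s = 1 := by
    rw [hs, hp₀.eq, show g₀ * z * g₀⁻¹ * (g₀ * z * g₀⁻¹) = g₀ * (z * z) * g₀⁻¹ by group, zz hc]
    group
  have hsz : s * z = z * s := (Subgroup.mem_centralizer_iff.1 s₀.1.2 z rfl).symm
  haveI : ((Subgroup.zpowers (b : G)).subgroupOf (cb b)).Normal := by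
    refine ⟨fun m hm k => ?_⟩
    have hm' : (m : G) ∈ Subgroup.zpowers (b : G) := hm
    show (k : G) * (m : G) * (k : G)⁻¹ ∈ Subgroup.zpowers (b : G)
    rwa [← Subgroup.mem_centralizer_iff.1 k.2 (m : G) hm', mul_inv_cancel_right]
  refine le_of_three_involutions _ N (fun m hm k => Subtype.ext
      (Subgroup.mem_centralizer_iff.1 k.2 (m : G) hm).symm) hN
    (a := ⟨z, z_mem_cb hc⟩) (c := ⟨s, hsb⟩) (Subtype.ext (zz hc)) (Subtype.ext hss)
    (Subtype.ext hsz.symm) ?_ ?_ ?_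
  · exact fun x hx h => hfixed z ⟨1, one_mem _, by group⟩ _ ⟨x, hx, rfl⟩ (congrArg Subtype.val h)
  · exact fun x hx h => hfixed s ⟨y, mem_cb.2 hby, hy⟩ _ ⟨x, hx, rfl⟩ (congrArg Subtype.val h)
  · intro x hx h
    refine hfixed (z * s) ⟨((w : Subgroup.centralizer ({z} : Set G)) : G) * y,
      mul_mem (mem_cb.2 (congrArg Subtype.val hcw.eq)) (mem_cb.2 hby), ?_⟩ _ ⟨x, hx, rfl⟩
      (congrArg Subtype.val h)
    rw [← hsz, ← hwG, ← hy]
    group

/-- A nontrivial normal `2`-subgroup of the centraliser contains `z`. -/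
theorem z_mem_of_two (hb : b ^ 7 = 1) (hm : Match e b γ₀) (T : Subgroup (cb b)) [T.Normal]
    (hT : IsPGroup 2 T) (hT1 : T ≠ ⊥) : ∃ t ∈ T, (t : G) = z := by
  classical
  haveI : Fact (Nat.Prime 7) := ⟨by norm_num⟩
  haveI : Fact (Nat.Prime 2) := ⟨Nat.prime_two⟩
  set zc : cb b := ⟨z, z_mem_cb hc⟩ with hzc
  have hzc2 : zc * zc = 1 := Subtype.ext (zz hc)
  have hzi : zc⁻¹ = zc := inv_eq_of_mul_eq_one_right hzc2
  have inQ : ∀ (q : Q) (hq : Commute b (q : Subgroup.centralizer ({z} : Set G))),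
      (q : Subgroup.centralizer ({z} : Set G)) ≠ 1 →
      (⟨_, mem_cb.2 (congrArg Subtype.val hq.eq)⟩ : cb b) ∈ T → ∃ t ∈ T, (t : G) = z := by
    intro q hq hq1 hmem
    by_cases hcen : q = 1 ∨ q = hc.zq
    · rcases hcen with rfl | rfl
      · exact absurd rfl hq1
      · exact ⟨_, hmem, rfl⟩
    · obtain ⟨y, hy, hcy⟩ := exists_swap_commute hc (p := 7) (by norm_num) hb hcen hq
      set qc : cb b := ⟨_, mem_cb.2 (congrArg Subtype.val hq.eq)⟩
      set yc : cb b := ⟨_, mem_cb.2 (congrArg Subtype.val hcy.eq)⟩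
      refine ⟨qc⁻¹ * (yc * qc * yc⁻¹), mul_mem (inv_mem hmem)
        ((inferInstance : T.Normal).conj_mem _ hmem yc), ?_⟩
      have hy' : (yc : G) * qc * (yc : G)⁻¹ = qc * z :=
        congrArg (fun q : Q => ((q : Subgroup.centralizer ({z} : Set G)) : G)) hy
      show (qc : G)⁻¹ * ((yc : G) * qc * (yc : G)⁻¹) = z
      rw [hy', inv_mul_cancel_left]
  obtain ⟨x, hxT, hx1, hxz⟩ : ∃ x ∈ T, x ≠ 1 ∧ zc * x = x * zc := by
    let σ : Equiv.Perm T :=
      ((MulAut.conjNormal zc : MulAut T) : T ≃* T).toEquiv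
    have hσ : ∀ t, ((σ t : T) : cb b) = zc * t * zc⁻¹ := fun t => rfl
    have h2 : 2 ∣ Nat.card T := by
      obtain ⟨n, hn⟩ := hT.exists_card_eq
      rcases n with _ | n
      · exact absurd (Subgroup.card_eq_one.1 (by simpa using hn)) hT1
      · rw [hn, pow_succ]; exact dvd_mul_left _ _
    haveI := Fintype.ofFinite T
    have hσ2 : σ ^ 2 ^ 1 = 1 := Equiv.ext fun t => Subtype.ext (by
      rw [pow_one, pow_two, Equiv.Perm.mul_apply, hσ, hσ, Equiv.Perm.one_apply, hzi,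
        show zc * (zc * (t : cb b) * zc) * zc = zc * zc * (t : cb b) * (zc * zc) by group, hzc2,
        one_mul, mul_one])
    obtain ⟨t, ht, ht1⟩ := Equiv.Perm.exists_fixed_point_of_prime'
      (by rw [← Nat.card_eq_fintype_card]; exact h2) hσ2 (a := (1 : T))
      (Subtype.ext (by rw [hσ]; simp))
    refine ⟨t, t.2, fun h => ht1 (Subtype.ext h), mul_inv_eq_iff_eq_mul.1 ?_⟩
    rw [← hσ, ht]
  set k : Subgroup.centralizer ({z} : Set G) :=
    ⟨(x : G), Subgroup.mem_centralizer_singleton_iff.2 (congrArg Subtype.val hxz).symm⟩ with hk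
  have hbk : Commute b k := Subtype.ext (mem_cb.1 x.2).eq
  by_cases hfix : ∀ q : Q, Commute b (q : Subgroup.centralizer ({z} : Set G)) →
      Commute k (q : Subgroup.centralizer ({z} : Set G))
  · obtain ⟨⟨n, hn⟩, -⟩ := rigid hc hb hm (Or.inl (by rw [← hbk.eq, mul_inv_cancel_right])) hfix
    obtain ⟨a, ha⟩ := hT ⟨x, hxT⟩
    have hka : k ^ 2 ^ a = 1 := Subtype.ext
      (congrArg (fun t : T => ((t : cb b) : G)) ha)
    rw [pow_b_eq_one hc hb hbk hn hka, mul_one] at hn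
    exact inQ ⟨k, hn⟩ hbk (fun h => hx1 (Subtype.ext (show (x : G) = 1 from congrArg Subtype.val h))) hxT
  · push Not at hfix
    obtain ⟨q, hq, hkq⟩ := hfix
    set qc : cb b := ⟨_, mem_cb.2 (congrArg Subtype.val hq.eq)⟩
    have hmem : k * q * k⁻¹ * (q : Subgroup.centralizer ({z} : Set G))⁻¹ ∈ Q :=
      mul_mem ((inferInstance : Q.Normal).conj_mem _ q.2 k) (inv_mem q.2)
    refine inQ ⟨_, hmem⟩ (((hbk.mul_right hq).mul_right hbk.inv_right).mul_right hq.inv_right)
      (fun h => hkq (mul_inv_eq_iff_eq_mul.1 (mul_inv_eq_one.1 h))) ?_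
    have e1 : x * (qc * x⁻¹ * qc⁻¹) ∈ T :=
      mul_mem hxT ((inferInstance : T.Normal).conj_mem _ (inv_mem hxT) qc)
    rw [show x * (qc * x⁻¹ * qc⁻¹) = x * qc * x⁻¹ * qc⁻¹ by group] at e1
    exact e1

/-- The centraliser has no nontrivial normal `2`-subgroup. -/
theorem two_normal_eq_bot (hb : b ^ 7 = 1) (hm : Match e b γ₀) (T : Subgroup (cb b)) [T.Normal]
    (hT : IsPGroup 2 T) : T = ⊥ := by
  haveI : Fact (Nat.Prime 7) := ⟨by norm_num⟩
  haveI : Fact (Nat.Prime 2) := ⟨Nat.prime_two⟩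
  by_contra hT1
  set W := (Subgroup.center T).map T.subtype with hW
  haveI : W.Normal := by rw [hW]; infer_instance
  have hW1 : W ≠ ⊥ := by
    intro h
    haveI : Nontrivial T := (Subgroup.nontrivial_iff_ne_bot T).2 hT1
    haveI := hT.center_nontrivial
    rw [hW, Subgroup.map_eq_bot_iff_of_injective _ T.subtype_injective] at h
    exact (Subgroup.nontrivial_iff_ne_bot _).1 inferInstance h
  have hWT : IsPGroup 2 W := hT.to_le (Subgroup.map_subtype_le _)
  obtain ⟨t, ht, htz⟩ := z_mem_of_two hc hb hm W hWT hW1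
  obtain ⟨g₀, g₁, s₀, s₁, hp₀, hp₁, hc₀, hc₁, hne⟩ := exists_pair hc hb hm
  have hmove : ∀ (g : G) (s : Q), ConjPair z Q g s →
      Commute b (s : Subgroup.centralizer ({z} : Set G)) →
      ∃ u ∈ W, (u : G) = ((s : Subgroup.centralizer ({z} : Set G)) : G) := by
    intro g s hp hcs
    obtain ⟨y, hby, hy⟩ := exists_move hc (p := 7) (by norm_num) hb hp hcs
    refine ⟨⟨y, mem_cb.2 hby⟩ * t * ⟨y, mem_cb.2 hby⟩⁻¹, (inferInstance : W.Normal).conj_mem _ ht _, ?_⟩
    show y * (t : G) * y⁻¹ = _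
    rw [htz, hy]
  obtain ⟨u₀, hu₀, e₀⟩ := hmove g₀ s₀ hp₀ hc₀
  obtain ⟨u₁, hu₁, e₁⟩ := hmove g₁ s₁ hp₁ hc₁
  obtain ⟨a₀, ha₀, rfl⟩ := hu₀
  obtain ⟨a₁, ha₁, rfl⟩ := hu₁
  refine hne (Subtype.ext (Subtype.ext ?_))
  show ((s₀ : Subgroup.centralizer ({z} : Set G)) : G) * _ = _ * _
  rw [← e₀, ← e₁]
  exact congrArg (fun u : T => ((u : cb b) : G)) (Subgroup.mem_center_iff.1 ha₁ a₀)

/-- Normal nilpotent subgroups of the centraliser are contained in `⟨b⟩`. -/
theorem nilpotent_normal_le (hb : b ^ 7 = 1) (hm : Match e b γ₀) (N : Subgroup (cb b)) [N.Normal]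
    (hN : Group.IsNilpotent N) : N ≤ (Subgroup.zpowers (b : G)).subgroupOf (cb b) := by
  classical
  set B := (Subgroup.zpowers (b : G)).subgroupOf (cb b)
  have hS : ∀ (p : ℕ) [Fact p.Prime] (P : Sylow p N), (P : Subgroup N).map N.subtype ≤ B := by
    intro p hp P
    haveI : (P : Subgroup N).Normal :=
      ((Group.isNilpotent_of_finite_tfae (G := N)).out 0 3 rfl rfl).mp hN p hp P
    haveI : (P : Subgroup N).Characteristic := Sylow.characteristic_of_normal P inferInstance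
    set P' := (P : Subgroup N).map N.subtype with hP'
    haveI : P'.Normal := by rw [hP']; infer_instance
    have hPg : IsPGroup p P' := P.2.map _
    rcases eq_or_ne p 2 with rfl | h2
    · rw [two_normal_eq_bot hc hb hm P' hPg]; exact bot_le
    · refine odd_normal_le hc hb hm P' ?_
      obtain ⟨n, hn⟩ := hPg.exists_card_eq
      rw [hn]
      exact (hp.out.odd_of_ne_two h2).pow
  have hdvd : Nat.card N ∣ Nat.card (B ⊓ N : Subgroup (cb b)) := by
    refine (Nat.dvd_iff_prime_pow_dvd_dvd _ _).2 fun p k hp hk => ?_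
    haveI := Fact.mk hp
    let P : Sylow p N := default
    refine dvd_trans (P.pow_dvd_card_of_pow_dvd_card hk) ?_
    rw [← Subgroup.card_map_of_injective (K := (P : Subgroup N)) N.subtype_injective]
    exact Subgroup.card_dvd_of_le (le_inf (hS p P) (Subgroup.map_subtype_le _))
  exact inf_eq_right.1 (Subgroup.eq_of_le_of_card_ge inf_le_right (Nat.le_of_dvd Nat.card_pos hdvd))

/-- The centraliser of the layer is `⟨b⟩`. -/
theorem centralizer_layer_le (hb : b ^ 7 = 1) (hm : Match e b γ₀) :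
    Subgroup.centralizer ((layer (cb b) : Subgroup (cb b)) : Set (cb b)) ≤
      (Subgroup.zpowers (b : G)).subgroupOf (cb b) := by
  set C := Subgroup.centralizer ((layer (cb b) : Subgroup (cb b)) : Set (cb b)) with hC
  haveI := Fitting.fittingSubgroup_isNilpotent (cb b)
  haveI := Fitting.fittingSubgroup_normal (cb b)
  have hF := nilpotent_normal_le hc hb hm (fittingSubgroup (cb b)) inferInstance
  have hle : C ≤ Subgroup.centralizer (generalizedFittingSubgroup (cb b) : Set (cb b)) := by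
    intro x hx
    rw [Subgroup.mem_centralizer_iff]
    have key : generalizedFittingSubgroup (cb b) ≤ Subgroup.centralizer {x} := by
      refine sup_le (fun y hy => Subgroup.mem_centralizer_singleton_iff.2
        (Subgroup.mem_centralizer_iff.1 hx y hy)) fun y hy =>
          Subgroup.mem_centralizer_singleton_iff.2 (Subtype.ext ?_)
      exact Subgroup.mem_centralizer_iff.1 x.2 (y : G) (hF hy)
    exact fun y hy => Subgroup.mem_centralizer_singleton_iff.1 (key hy)
  have habel : ∀ x y : C, x * y = y * x := fun x y =>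
    Subtype.ext (Subgroup.mem_centralizer_iff.1 (hle y.2) x
      (FStar.centralizer_generalizedFitting_le (hle x.2)))
  refine nilpotent_normal_le hc hb hm C ?_
  letI : CommGroup C := { (inferInstance : Group C) with mul_comm := habel }
  infer_instance

/-- An involution of `C(z)` inverting `b` induces a non-inner automorphism of the layer. -/
theorem outer_on_layer (hb : b ^ 7 = 1) (hm : Match e b γ₀) {t : Subgroup.centralizer ({z} : Set G)}
    (ht : t * b * t⁻¹ = b⁻¹) :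
    ¬ ∃ l ∈ (layer (cb b)).map (cb b).subtype, ∀ x ∈ (layer (cb b)).map (cb b).subtype,
      (t : G) * x * (t : G)⁻¹ = l * x * l⁻¹ := by
  rintro ⟨_, ⟨l, -, rfl⟩, hl⟩
  haveI : Fact (Nat.Prime 7) := ⟨by norm_num⟩
  have htG : (t : G) * b * (t : G)⁻¹ = (b : G)⁻¹ := congrArg Subtype.val ht
  have hlb : Commute (b : G) (l : G) := mem_cb.1 l.2
  set k₀ : G := (l : G)⁻¹ * t with hk₀
  have hk₀b : k₀ * b * k₀⁻¹ = (b : G)⁻¹ := by
    calc k₀ * b * k₀⁻¹ = (l : G)⁻¹ * ((t : G) * b * (t : G)⁻¹) * l := by rw [hk₀]; group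
      _ = (b : G)⁻¹ := by rw [htG, mul_assoc, hlb.inv_left.eq, inv_mul_cancel_left]
  have hstab : ∀ x ∈ cb b, k₀ * x * k₀⁻¹ ∈ cb b := fun x hx => by
    refine mem_cb.2 ?_
    have h1 : Commute (k₀ * b * k₀⁻¹) (k₀ * x * k₀⁻¹) := by
      show _ = _
      calc k₀ * b * k₀⁻¹ * (k₀ * x * k₀⁻¹) = k₀ * ((b : G) * x) * k₀⁻¹ := by group
        _ = _ := by rw [(mem_cb.1 hx).eq]; group
    rw [hk₀b] at h1
    simpa using h1.inv_left
  have hfixL : ∀ y ∈ layer (cb b), k₀ * (y : G) * k₀⁻¹ = y := by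
    intro y hy
    have := hl _ ⟨y, hy, rfl⟩
    calc k₀ * (y : G) * k₀⁻¹ = (l : G)⁻¹ * ((t : G) * y * (t : G)⁻¹) * l := by rw [hk₀]; group
      _ = (l : G)⁻¹ * ((l : G) * y * (l : G)⁻¹) * l := by rw [show (t : G) * y * (t : G)⁻¹ = _ from this]; rfl
      _ = y := by group
  have hshift : ∀ x : G, x ∈ cb b → ∃ n : ℕ, k₀ * x * k₀⁻¹ = x * (b : G) ^ n := by
    intro x hx
    have hmem : (⟨x, hx⟩ : cb b)⁻¹ * ⟨_, hstab x hx⟩ ∈
        Subgroup.centralizer ((layer (cb b) : Subgroup (cb b)) : Set (cb b)) := by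
      rw [Subgroup.mem_centralizer_iff]
      intro y hy
      apply Subtype.ext
      show (y : G) * (x⁻¹ * (k₀ * x * k₀⁻¹)) = x⁻¹ * (k₀ * x * k₀⁻¹) * (y : G)
      have hxy : k₀ * (x * (y : G) * x⁻¹) * k₀⁻¹ = x * (y : G) * x⁻¹ :=
        hfixL ⟨x * (y : G) * x⁻¹, mul_mem (mul_mem hx y.2) (inv_mem hx)⟩
          ((inferInstance : (layer (cb b)).Normal).conj_mem y hy ⟨x, hx⟩)
      have hy0 := hfixL y hy
      calc (y : G) * (x⁻¹ * (k₀ * x * k₀⁻¹))
          = x⁻¹ * (x * (y : G) * x⁻¹) * (k₀ * x * k₀⁻¹) := by group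
        _ = x⁻¹ * (k₀ * x * (k₀⁻¹ * (k₀ * (y : G) * k₀⁻¹) * k₀) * x⁻¹ * k₀⁻¹) * (k₀ * x * k₀⁻¹) := by
            rw [← hxy]; group
        _ = x⁻¹ * (k₀ * x * k₀⁻¹) * (k₀ * (y : G) * k₀⁻¹) := by group
        _ = _ := by rw [hy0]
    obtain ⟨n, hn⟩ : ∃ n : ℕ, (b : G) ^ n = x⁻¹ * (k₀ * x * k₀⁻¹) :=
      mem_powers_iff_mem_zpowers.2 (centralizer_layer_le hc hb hm hmem)
    exact ⟨n, by rw [hn, mul_inv_cancel_left]⟩
  have hkill : ∀ {x : G} {n a : ℕ}, Commute (b : G) x → x ^ 2 ^ a = 1 →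
      (x * (b : G) ^ n) ^ 2 ^ a = 1 → (b : G) ^ n = 1 := by
    intro x n a hcx hx2 h
    rw [((hcx.pow_left n).symm).mul_pow, hx2, one_mul] at h
    refine orderOf_eq_one_iff.1 (Nat.eq_one_of_dvd_coprimes (a := 7) (b := 2 ^ a) ?_
      (orderOf_dvd_of_pow_eq_one ?_) (orderOf_dvd_of_pow_eq_one h))
    · exact Nat.Coprime.pow_right _ (by norm_num)
    · rw [← pow_mul, mul_comm, pow_mul, show (b : G) ^ 7 = 1 from congrArg Subtype.val hb, one_pow]
  have hz : k₀ * z = z * k₀ := by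
    obtain ⟨n, hn⟩ := hshift z (z_mem_cb hc)
    have h2 : z ^ 2 ^ 1 = 1 := by rw [pow_one, pow_two]; exact zz hc
    have hb1 := hkill (commute_b_z hc) h2 (by rw [← hn, conj_pow, h2]; group)
    rw [hb1, mul_one] at hn
    exact mul_inv_eq_iff_eq_mul.1 hn
  set k : Subgroup.centralizer ({z} : Set G) :=
    ⟨k₀, Subgroup.mem_centralizer_singleton_iff.2 hz⟩
  have hkb : k * b * k⁻¹ = b⁻¹ := Subtype.ext hk₀b
  obtain ⟨-, hcomm⟩ := rigid hc hb hm (Or.inr hkb) fun q hq => by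
    obtain ⟨n, hn⟩ := hshift ((q : Subgroup.centralizer ({z} : Set G)) : G)
      (mem_cb.2 (congrArg Subtype.val hq.eq))
    have h25 : ((q : Subgroup.centralizer ({z} : Set G)) : G) ^ 2 ^ 25 = 1 :=
      congrArg Subtype.val (pow_card_Q hc q.2)
    have hb1 := hkill (congrArg Subtype.val hq.eq) h25 (by rw [← hn, conj_pow, h25]; group)
    rw [hb1, mul_one] at hn
    exact Subtype.ext (mul_inv_eq_iff_eq_mul.1 hn)
  have h2 : b = b⁻¹ := hcomm.symm.trans hkb
  refine seven_ne_one hc hm ?_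
  have h3 : b ^ 2 = 1 := by rw [pow_two]; nth_rewrite 2 [h2]; rw [mul_inv_cancel]
  have h4 := hb
  rw [show 7 = 2 * 3 + 1 from rfl, pow_succ, pow_mul, h3, one_pow, one_mul] at h4
  rw [h4]; rfl

end CfsgLib.MonsterSeven49
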