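import Mathlib
import Cfsg.Agent.MonsterSeven49.Layer
import Cfsg.Agent.Leech.Order

set_option autoImplicit false

/-! The normaliser of the Sylow 7-subgroup of a joint centraliser, and an outer inverting involution. -/

namespace CfsgLib.MonsterSeven49

open Cfsg CfsgLib.Leech

variable {G : Type*} [Group G] [Finite G]

/-- The layer of the centraliser, in the whole group. -/
abbrev layerIn (B : Subgroup G) : Subgroup G :=
  (layer ↥(Subgroup.centralizer (B : Set G))).map (Subgroup.centralizer (B : Set G)).subtype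

/-- Index six and an outer inverting involution. -/
def SevenConclusion (B : Subgroup G) : Prop :=
  (Subgroup.centralizer (B : Set G)).relIndex (Subgroup.normalizer (B : Set G)) = 6 ∧
    ∃ t : G, orderOf t = 2 ∧ (∀ b ∈ B, t * b * t⁻¹ = b⁻¹) ∧
      (∀ x ∈ layerIn B, t * x * t⁻¹ ∈ layerIn B) ∧
      ¬ ∃ l ∈ layerIn B, ∀ x ∈ layerIn B, t * x * t⁻¹ = l * x * l⁻¹

theorem map_centralizer_conj (B : Subgroup G) (φ : G ≃* G) :
    (Subgroup.centralizer (B : Set G)).map φ.toMonoidHom =
      Subgroup.centralizer ((B.map φ.toMonoidHom : Subgroup G) : Set G) := by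
  ext x
  constructor
  · rintro ⟨y, hy, rfl⟩
    refine Subgroup.mem_centralizer_iff.2 ?_
    rintro _ ⟨w, hw, rfl⟩
    show φ w * φ y = φ y * φ w
    rw [← map_mul, ← map_mul, Subgroup.mem_centralizer_iff.1 hy w hw]
  · intro hx
    refine ⟨φ.symm x, Subgroup.mem_centralizer_iff.2 fun w hw => φ.injective ?_, φ.apply_symm_apply x⟩
    rw [map_mul, map_mul, φ.apply_symm_apply]
    exact Subgroup.mem_centralizer_iff.1 hx _ ⟨w, hw, rfl⟩

theorem map_normalizer_conj (B : Subgroup G) (φ : G ≃* G) :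
    (Subgroup.normalizer (B : Set G)).map φ.toMonoidHom =
      Subgroup.normalizer ((B.map φ.toMonoidHom : Subgroup G) : Set G) :=
  Subgroup.map_normalizer_eq_of_bijective B φ.bijective

theorem map_layerIn_le (B : Subgroup G) (φ : G ≃* G) :
    (layerIn B).map φ.toMonoidHom ≤ layerIn (B.map φ.toMonoidHom) := by
  let e := (φ.subgroupMap (Subgroup.centralizer (B : Set G))).trans
    (MulEquiv.subgroupCongr (map_centralizer_conj B φ))
  rintro _ ⟨_, ⟨y, hy, rfl⟩, rfl⟩
  exact ⟨e y, FStar.layer_map e ⟨y, hy, rfl⟩, rfl⟩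

theorem map_layerIn (B : Subgroup G) (φ : G ≃* G) :
    (layerIn B).map φ.toMonoidHom = layerIn (B.map φ.toMonoidHom) := by
  refine le_antisymm (map_layerIn_le B φ) fun x hx => ⟨φ.symm x, ?_, φ.apply_symm_apply x⟩
  have h := map_layerIn_le (B.map φ.toMonoidHom) φ.symm ⟨x, hx, rfl⟩
  rwa [Subgroup.map_map, show φ.symm.toMonoidHom.comp φ.toMonoidHom = MonoidHom.id G from
    MonoidHom.ext fun w => φ.symm_apply_apply w, Subgroup.map_id] at h

theorem SevenConclusion.transport {B : Subgroup G} (φ : G ≃* G)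
    (h : SevenConclusion (B.map φ.toMonoidHom)) : SevenConclusion B := by
  obtain ⟨h6, t, ht2, htb, hts, hto⟩ := h
  rw [← map_layerIn] at hts hto
  refine ⟨?_, φ.symm t, by rw [MulEquiv.orderOf_eq, ht2], fun b hb => φ.injective ?_, fun x hx => ?_, ?_⟩
  · rwa [← map_centralizer_conj, ← map_normalizer_conj,
      Subgroup.relIndex_map_map_of_injective _ _ (f := φ.toMonoidHom) φ.injective] at h6
  · simp only [map_mul, map_inv, φ.apply_symm_apply]
    exact htb _ ⟨b, hb, rfl⟩
  · obtain ⟨y, hy, he⟩ := hts _ ⟨x, hx, rfl⟩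
    rw [show φ.symm t * x * (φ.symm t)⁻¹ = y from φ.injective (by
      simp only [map_mul, map_inv, φ.apply_symm_apply]; exact he.symm)]
    exact hy
  · rintro ⟨l, hl, h⟩
    refine hto ⟨φ l, ⟨l, hl, rfl⟩, ?_⟩
    rintro _ ⟨x, hx, rfl⟩
    have := congrArg φ (h x hx)
    simp only [map_mul, map_inv, φ.apply_symm_apply] at this
    exact this

variable {z : G}
variable {Q : Subgroup (Subgroup.centralizer ({z} : Set G))} [Q.Normal]
variable {e : (Subgroup.centralizer ({z} : Set G)) ⧸ Q ≃* Spor.Co1}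
variable {ψ : leechLattice → Q ⧸ Subgroup.center Q}
variable (hc : Ctx z Q e ψ) {b : Subgroup.centralizer ({z} : Set G)}
include hc

/-- The conclusion for the chosen element. -/
theorem conclusion_zpowers (hb : b ^ 7 = 1) (hm : Match e b γ₀) :
    SevenConclusion (Subgroup.zpowers (b : G)) := by
  classical
  haveI : Fact (Nat.Prime 7) := ⟨by norm_num⟩
  set B := Subgroup.zpowers (b : G) with hB
  set C := Subgroup.centralizer (B : Set G) with hC
  set N := Subgroup.normalizer (B : Set G) with hN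
  have hbG : (b : G) ^ 7 = 1 := congrArg Subtype.val hb
  have hord : orderOf (b : G) = 7 := orderOf_eq_prime hbG (seven_ne_one hc hm)
  have hnorm : ∀ (y : G) (n : ℕ), y * b * y⁻¹ = (b : G) ^ n → y ∈ N := by
    intro y n hy
    have hmap : B.map (MulAut.conj y).toMonoidHom = B := by
      refine Subgroup.eq_of_le_of_card_ge ?_
        (le_of_eq (Subgroup.card_map_of_injective (MulAut.conj y).injective).symm)
      rintro _ ⟨w, hw, rfl⟩
      obtain ⟨i, rfl⟩ := Subgroup.mem_zpowers_iff.1 hw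
      show y * (b : G) ^ i * y⁻¹ ∈ B
      rw [← conj_zpow, hy]
      exact Subgroup.zpow_mem _ (Subgroup.pow_mem _ (Subgroup.mem_zpowers _) n) i
    rw [hN, Subgroup.mem_normalizer_iff]
    intro w
    constructor
    · intro hw; rw [← hmap]; exact ⟨w, hw, rfl⟩
    · intro hw
      rw [← hmap] at hw
      obtain ⟨w', hw', he⟩ := hw
      have : w' = w := by simpa using he
      exact this ▸ hw'
  obtain ⟨t, ht2, ht⟩ := exists_inverting hc hb hm
  have htG : (t : G) * b * (t : G)⁻¹ = (b : G)⁻¹ := congrArg Subtype.val ht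
  have htN : (t : G) ∈ N := hnorm _ 6 (by
    rw [htG]; exact inv_eq_of_mul_eq_one_right (by rw [← pow_succ']; exact hbG))
  obtain ⟨h, hh⟩ := exists_squaring hc hb hm
  have hhG : (h : G) * b * (h : G)⁻¹ = (b : G) ^ 2 := congrArg Subtype.val hh
  have hhN : (h : G) ∈ N := hnorm _ 2 hhG
  let f : N →* MulAut B := B.normalizerMonoidHom
  have hfk : C.relIndex N = Nat.card f.range := by
    rw [Subgroup.relIndex, ← Subgroup.normalizerMonoidHom_ker, Subgroup.index_ker]
  have hle : Nat.card f.range ∣ 6 := by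
    have h1 := Subgroup.card_subgroup_dvd_card f.range
    rwa [IsCyclic.card_mulAut, Nat.card_zpowers, hord, Nat.totient_prime (by norm_num)] at h1
  have hval : ∀ (y : N) (w : B), ((f y w : B) : G) = y * w * (y : G)⁻¹ := fun y w => rfl
  let bb : B := ⟨b, Subgroup.mem_zpowers _⟩
  have hne : ∀ {i j : ℕ}, i < 7 → j < 7 → (b : G) ^ i = (b : G) ^ j → i = j := fun {i j} hi hj he =>
    pow_injOn_Iio_orderOf (by rw [hord]; exact hi) (by rw [hord]; exact hj) he
  have ha2 : orderOf (f ⟨_, htN⟩) = 2 := by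
    refine orderOf_eq_prime ?_ ?_
    · rw [← map_pow, show (⟨_, htN⟩ : N) ^ 2 = 1 from Subtype.ext (by
        show (t : G) ^ 2 = 1
        rw [← ht2]; exact pow_orderOf_eq_one _), map_one]
    · intro he
      have h1 := congrArg (fun a : MulAut B => ((a bb : B) : G)) he
      simp only [hval, MulAut.one_apply] at h1
      have h2 : (b : G)⁻¹ = b := by rw [← htG]; exact h1
      have h3 : (b : G) ^ 2 = (b : G) ^ 0 := by
        rw [pow_zero, pow_two]; nth_rewrite 1 [← h2]; rw [inv_mul_cancel]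
      exact absurd (hne (by norm_num) (by norm_num) h3) (by norm_num)
  have ha3 : orderOf (f ⟨_, hhN⟩) = 3 := by
    haveI : Fact (Nat.Prime 3) := ⟨by norm_num⟩
    refine orderOf_eq_prime ?_ ?_
    · refine MulEquiv.ext fun w => Subtype.ext ?_
      rw [← map_pow, hval]
      obtain ⟨i, hi⟩ := Subgroup.mem_zpowers_iff.1 w.2
      show ((h : G) ^ 3) * (w : G) * ((h : G) ^ 3)⁻¹ = (w : G)
      rw [← hi, ← conj_zpow]
      congr 1
      have hs2 : ∀ j : ℕ, (h : G) * (b : G) ^ j * (h : G)⁻¹ = (b : G) ^ (2 * j) := fun j => by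
        rw [← conj_pow, hhG, ← pow_mul]
      calc (h : G) ^ 3 * b * ((h : G) ^ 3)⁻¹
          = h * (h * (h * (b : G) ^ 1 * (h : G)⁻¹) * (h : G)⁻¹) * (h : G)⁻¹ := by
            simp only [pow_one, pow_succ, pow_zero, one_mul, mul_inv_rev, mul_assoc]
        _ = (b : G) ^ 8 := by
          rw [hs2, hs2, hs2]
        _ = b := by rw [show 8 = 7 + 1 from rfl, pow_succ, hbG, one_mul]
    · intro he
      have h1 := congrArg (fun a : MulAut B => ((a bb : B) : G)) he
      simp only [hval, MulAut.one_apply] at h1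
      have h3 : (b : G) ^ 2 = (b : G) ^ 1 := by rw [pow_one, ← hhG]; exact h1
      exact absurd (hne (by norm_num) (by norm_num) h3) (by norm_num)
  refine ⟨?_, (t : G), ht2, ?_, ?_, outer_on_layer hc hb hm ht⟩
  · rw [hfk]
    refine Nat.dvd_antisymm hle ?_
    have h2 : 2 ∣ Nat.card f.range := ha2 ▸ Subgroup.orderOf_dvd_natCard _ ⟨_, rfl⟩
    have h3 : 3 ∣ Nat.card f.range := ha3 ▸ Subgroup.orderOf_dvd_natCard _ ⟨_, rfl⟩
    exact Nat.Coprime.mul_dvd_of_dvd_of_dvd (by norm_num : Nat.Coprime 2 3) h2 h3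
  · intro x hx
    obtain ⟨i, rfl⟩ := Subgroup.mem_zpowers_iff.1 hx
    rw [← conj_zpow, htG, inv_zpow]
  · intro x hx
    have hBt : B.map (MulAut.conj (t : G)).toMonoidHom = B := by
      refine Subgroup.eq_of_le_of_card_ge ?_
        (le_of_eq (Subgroup.card_map_of_injective (MulAut.conj (t : G)).injective).symm)
      rintro _ ⟨w, hw, rfl⟩
      exact (Subgroup.mem_normalizer_iff.1 htN w).1 hw
    have h1 := map_layerIn_le B (MulAut.conj (t : G)) ⟨x, hx, rfl⟩
    rwa [hBt] at h1

omit hc in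
/-- The order of the image of the frame stabiliser has 7-part at most 7. -/
theorem dvd_frame {n : ℕ} (h : 7 ^ n ∣ 4096 * 244823040) : n ≤ 1 := by
  by_contra hn
  have : 7 ^ 2 ∣ 4096 * 244823040 := (pow_dvd_pow 7 (by omega)).trans h
  revert this
  decide +kernel

/-- A Sylow 7-subgroup of the joint centraliser with a frame conjugate is cyclic of order 7 and
conjugate to the chosen one. -/
theorem conclusion_sylow {s : G} (hsQ : ∃ hsc : s ∈ Subgroup.centralizer ({z} : Set G),
      (⟨s, hsc⟩ : Subgroup.centralizer ({z} : Set G)) ∈ Q) (hs : IsConj z s) (hs1 : s ≠ z)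
    (B : Subgroup G) (hB : B ≤ Subgroup.centralizer ({z, s} : Set G))
    (hBp : Nat.card B = 7 ^ (Nat.card ↥(Subgroup.centralizer ({z, s} : Set G))).factorization 7) :
    SevenConclusion B := by
  classical
  haveI : Fact (Nat.Prime 7) := ⟨by norm_num⟩
  obtain ⟨hsc, hsq⟩ := hsQ
  obtain ⟨b, hb, hm⟩ := exists_seven hc
  obtain ⟨s₀, hs₀, hc₀⟩ := MonsterCent13.exists_lift_commute hc (p := 7) (by norm_num) hb hm
    (cg_of_fixed (v := axisVec none) axis_fixed)
  obtain ⟨a₀, b₀⟩ := (hc.conj_iff_frame hs₀).2 ⟨1, by rw [one_smul]; exact Cg.refl _⟩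
  obtain ⟨k, hk, hks⟩ := hc.transitive_conjugates (x := (⟨_, hsq⟩ : Q)) (y := s₀) hs hs1 a₀ b₀
  set φ : G ≃* G := MulAut.conj k
  set s' := ((s₀ : Subgroup.centralizer ({z} : Set G)) : G) with hs'
  set H := Subgroup.centralizer ({z, s'} : Set G) with hH
  have hmemH : ∀ {a u x : G}, x ∈ Subgroup.centralizer ({a, u} : Set G) ↔
      a * x = x * a ∧ u * x = x * u := fun {a u x} => by
    rw [Subgroup.mem_centralizer_iff]
    simp only [Set.mem_insert_iff, Set.mem_singleton_iff, forall_eq_or_imp, forall_eq]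
  have hkz : k * z * k⁻¹ = z := by
    rw [Subgroup.mem_centralizer_singleton_iff.1 hk, mul_inv_cancel_right]
  have hmapH : (Subgroup.centralizer ({z, s} : Set G)).map φ.toMonoidHom = H := by
    ext x
    constructor
    · rintro ⟨y, hy, rfl⟩
      obtain ⟨h1, h2⟩ := hmemH.1 hy
      refine hmemH.2 ⟨?_, ?_⟩
      · have := congrArg φ h1
        rw [map_mul, map_mul, show φ z = z from hkz] at this
        exact this
      · have := congrArg φ h2
        rw [map_mul, map_mul, show φ s = s' from hks] at this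
        exact this
    · intro hx
      obtain ⟨h1, h2⟩ := hmemH.1 hx
      refine ⟨φ.symm x, hmemH.2 ⟨φ.injective ?_, φ.injective ?_⟩, φ.apply_symm_apply x⟩
      · rw [map_mul, map_mul, φ.apply_symm_apply, show φ z = z from hkz]; exact h1
      · rw [map_mul, map_mul, φ.apply_symm_apply, show φ s = s' from hks]; exact h2
  set P := B.map φ.toMonoidHom with hP
  have hPH : P ≤ H := hmapH ▸ Subgroup.map_mono hB
  set n := (Nat.card H).factorization 7
  have hPcard : Nat.card P = 7 ^ n := by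
    have hcard : Nat.card H = Nat.card (Subgroup.centralizer ({z, s} : Set G)) := by
      rw [← hmapH, Subgroup.card_map_of_injective φ.injective]
    rw [hP, Subgroup.card_map_of_injective φ.injective, hBp, ← hcard]
  have hbH : (b : G) ∈ H := hmemH.2 ⟨(commute_b_z hc).eq.symm, (congrArg Subtype.val hc₀.eq).symm⟩
  have hord : orderOf (b : G) = 7 :=
    orderOf_eq_prime (congrArg Subtype.val hb) (seven_ne_one hc hm)
  -- the order of `P` is 7
  have hPC : P ≤ Subgroup.centralizer ({z} : Set G) := fun x hx =>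
    Subgroup.mem_centralizer_singleton_iff.2 (hmemH.1 (hPH hx)).1.symm
  let ι : P →* Spor.Co1 :=
    e.toMonoidHom.comp ((QuotientGroup.mk' Q).comp (Subgroup.inclusion hPC))
  have hι : Function.Injective ι := by
    refine (injective_iff_map_eq_one ι).2 fun x hx => ?_
    have h1 : Subgroup.inclusion hPC x ∈ Q := by
      rw [← QuotientGroup.eq_one_iff]
      exact e.injective (hx.trans (map_one e).symm)
    have h2 := pow_card_Q hc h1
    have h3 : (x : G) ^ 2 ^ 25 = 1 := congrArg Subtype.val h2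
    have h4 : (x : G) ^ 7 ^ n = 1 := by
      rw [← hPcard]; exact congrArg Subtype.val (pow_card_eq_one' (x := x))
    refine Subtype.ext (orderOf_eq_one_iff.1 (Nat.eq_one_of_dvd_coprimes ?_
      (orderOf_dvd_of_pow_eq_one h3) (orderOf_dvd_of_pow_eq_one h4)))
    exact Nat.Coprime.pow _ _ (by norm_num)
  have hrange : ι.range ≤ frameStab.map (QuotientGroup.mk' (Subgroup.center Co0)) := by
    rintro _ ⟨x, rfl⟩
    obtain ⟨g, hg⟩ := exists_match_right (e := e) (Subgroup.inclusion hPC x)
    refine ⟨g, ?_, hg⟩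
    have h1 := hc.conj_class hg hs₀
    have hxs := (hmemH.1 (hPH x.2)).2
    rw [show (⟨Subgroup.inclusion hPC x * s₀ * (Subgroup.inclusion hPC x)⁻¹,
        (inferInstance : Q.Normal).conj_mem _ s₀.2 _⟩ : Q) = s₀ from
      Subtype.ext (Subtype.ext (by
        show (x : G) * s' * (x : G)⁻¹ = s'
        rw [← hxs, mul_inv_cancel_right]))] at h1
    exact (psi_eq_iff hc.iso _ _).1 (h1.trans hs₀.symm)
  have hn1 : n ≤ 1 := by
    refine dvd_frame ?_
    rw [← hPcard, ← card_frameStab, Nat.card_congr (MonoidHom.ofInjective hι).toEquiv]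
    exact (Subgroup.card_dvd_of_le hrange).trans (Subgroup.card_map_dvd _ _)
  have hn0 : 1 ≤ n := by
    have h7 : 7 ∣ Nat.card H := hord ▸ Subgroup.orderOf_dvd_natCard _ hbH
    exact (Nat.Prime.dvd_iff_one_le_factorization (by norm_num) Nat.card_pos.ne').1 h7
  have hn : n = 1 := le_antisymm hn1 hn0
  let P₁ : Sylow 7 H := Sylow.ofCard (P.subgroupOf H) (by
    rw [Nat.card_congr (Subgroup.subgroupOfEquivOfLe hPH).toEquiv, hPcard])
  let P₂ : Sylow 7 H := Sylow.ofCard ((Subgroup.zpowers (b : G)).subgroupOf H) (by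
    rw [Nat.card_congr (Subgroup.subgroupOfEquivOfLe ((Subgroup.zpowers_le).2 hbH)).toEquiv,
      Nat.card_zpowers, hord, show (Nat.card H).factorization 7 = n from rfl, hn, pow_one])
  obtain ⟨h, hh⟩ := MulAction.exists_smul_eq H P₁ P₂
  have hconj : P.map (MulAut.conj (h : G)).toMonoidHom = Subgroup.zpowers (b : G) := by
    have h1 := congrArg (fun S : Sylow 7 H => (S : Subgroup H).map H.subtype) hh
    simp only [Sylow.coe_subgroup_smul, P₁, P₂, Sylow.coe_ofCard,
      Subgroup.map_subgroupOf_eq_of_le ((Subgroup.zpowers_le).2 hbH)] at h1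
    rw [← h1]
    ext x
    constructor
    · rintro ⟨y, hy, rfl⟩
      exact ⟨_, ⟨⟨y, hPH hy⟩, hy, rfl⟩, rfl⟩
    · rintro ⟨_, ⟨y, hy, rfl⟩, rfl⟩
      exact ⟨(y : G), hy, rfl⟩
  refine SevenConclusion.transport φ (SevenConclusion.transport (MulAut.conj (h : G)) ?_)
  rw [← hP, hconj]
  exact conclusion_zpowers hc hb hm

end CfsgLib.MonsterSeven49
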